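import Mathlib
import Cfsg.Prelude.Def_OddOrderLocal
import Cfsg.Agent.S3743
import Cfsg.Agent.Lib.Helper23.Compl
import Cfsg.Agent.Lib.Helper23.TypeP
import Cfsg.Agent.Lib.Helper24.PRank

/-!
Basic facts about `M_σ`, Hall subgroups and complements used in the Bender–Glauberman chain.
-/

set_option autoImplicit false

namespace Cfsg.Agent.Lib.Helper67.BG

open Cfsg

variable {G : Type*} [Group G]

theorem sigmaCore_le (M : Subgroup G) : sigmaCore M ≤ M :=
  Subgroup.map_subtype_le _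

theorem card_sigmaCore (M : Subgroup G) :
    Nat.card (sigmaCore M) = Nat.card (piCore (sigma M) M) := by
  unfold sigmaCore
  rw [Subgroup.card_map_of_injective M.subtype_injective]

theorem sigmaCore_isPi [Finite G] (M : Subgroup G) :
    ∀ p : ℕ, p.Prime → p ∣ Nat.card (sigmaCore M) → p ∈ sigma M := by
  intro p hp hdvd
  rw [card_sigmaCore] at hdvd
  exact Cfsg.Agent.S3743.piCore_isPi (sigma M) p hp hdvd

theorem sigmaCore_normalizer (M : Subgroup G) :
    M ≤ Subgroup.normalizer (sigmaCore M : Set G) := by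
  intro x hx
  rw [Subgroup.mem_normalizer_iff]
  have key : ∀ y : G, y ∈ M → ∀ w, w ∈ sigmaCore M → y * w * y⁻¹ ∈ sigmaCore M := by
    rintro y hy _ ⟨w, hw, rfl⟩
    refine ⟨⟨y, hy⟩ * w * ⟨y, hy⟩⁻¹, ?_, rfl⟩
    exact (piCore_normal (sigma M) M).conj_mem w hw ⟨y, hy⟩
  intro w
  constructor
  · exact key x hx w
  · intro h
    have := key x⁻¹ (M.inv_mem hx) _ h
    simpa [mul_assoc] using this

theorem relIndex_sigmaCore (M : Subgroup G) :
    (sigmaCore M).relIndex M = (piCore (sigma M) M).index := by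
  unfold sigmaCore
  unfold Subgroup.relIndex
  congr 1
  ext x
  simp [Subgroup.mem_subgroupOf]

/-- If `M_σ` is a Hall subgroup of `M`, it has a complement in `M` (Schur–Zassenhaus). -/
theorem exists_compl_sigmaCore [Finite G] (M : Subgroup G)
    (hHall : IsPiHallOf (sigma M) (sigmaCore M) M) :
    ∃ E : Subgroup G, IsComplIn E (sigmaCore M) M := by
  have hcop : (Nat.card (piCore (sigma M) M)).Coprime (piCore (sigma M) M).index := by
    rw [Nat.coprime_iff_gcd_eq_one]
    by_contra hne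
    obtain ⟨p, hp, hdvd⟩ := Nat.exists_prime_and_dvd hne
    have h1 : p ∣ Nat.card (piCore (sigma M) M) := hdvd.trans (Nat.gcd_dvd_left _ _)
    have h2 : p ∣ (piCore (sigma M) M).index := hdvd.trans (Nat.gcd_dvd_right _ _)
    have h3 : p ∈ sigma M := Cfsg.Agent.S3743.piCore_isPi (sigma M) p hp h1
    apply hHall.2.2 p hp h3
    rw [relIndex_sigmaCore]
    exact h2
  obtain ⟨H, hH⟩ := Subgroup.exists_right_complement'_of_coprime hcop
  refine ⟨H.map M.subtype, Subgroup.map_subtype_le _, sigmaCore_le M, ?_, ?_⟩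
  · rw [eq_bot_iff]
    rintro x ⟨⟨a, ha, rfl⟩, ⟨b, hb, hab⟩⟩
    have hab' : b = a := M.subtype_injective hab
    subst hab'
    have hdisj := hH.disjoint
    have : b ∈ (piCore (sigma M) M) ⊓ H := ⟨hb, ha⟩
    rw [hdisj.eq_bot, Subgroup.mem_bot] at this
    rw [Subgroup.mem_bot, this]
    rfl
  · intro m hm
    have hH' : Subgroup.IsComplement' H (piCore (sigma M) M) := hH.symm
    obtain ⟨⟨⟨a, ha⟩, ⟨b, hb⟩⟩, hab⟩ := hH'.2 (⟨m, hm⟩ : M)
    refine ⟨(a : G), ⟨a, ha, rfl⟩, (b : G), ⟨b, hb, rfl⟩, ?_⟩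
    have := congrArg (fun t : M => (t : G)) hab
    simpa using this.symm

/-- A `p`-subgroup whose order is not `1` has order divisible by `p`. -/
theorem dvd_card_of_isPGroup_ne_bot [Finite G] {p : ℕ} [Fact p.Prime] {N : Subgroup G}
    (hN : IsPGroup p N) (hne : N ≠ ⊥) : p ∣ Nat.card N := by
  obtain ⟨n, hn⟩ := IsPGroup.iff_card.mp hN
  rw [hn]
  have : n ≠ 0 := by
    intro h0
    rw [h0, pow_zero] at hn
    exact hne (Subgroup.card_eq_one.mp hn)
  exact dvd_pow_self p this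

theorem prime_eq_of_dvd_card_isPGroup [Finite G] {p q : ℕ} [Fact p.Prime] {N : Subgroup G}
    (hN : IsPGroup p N) (hq : q.Prime) (hdvd : q ∣ Nat.card N) : q = p := by
  obtain ⟨n, hn⟩ := IsPGroup.iff_card.mp hN
  rw [hn] at hdvd
  exact (Nat.prime_dvd_prime_iff_eq hq Fact.out).mp (hq.dvd_of_dvd_pow hdvd)

end Cfsg.Agent.Lib.Helper67.BG
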