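import Mathlib
import Cfsg.Prelude.Def_OddOrderLocal
import Cfsg.Statements.S1350
import Cfsg.Statements.S1405
import Cfsg.Statements.S1420
import Cfsg.Agent.Lib.Helper67.BG.Basics

/-!
Bender–Glauberman: the Sylow subgroups of `U` in a standard factorisation `M = K U M_σ` are abelian
of rank at most two (statement S1358), derived from S1350 (`M_σ` is a Hall subgroup of `M`),
S1405 (`M_α ≤ M_σ`, `M_α` Hall) and S1420 (nilpotent `σ(M)'`-subgroups are abelian), which are taken
as hypotheses.
-/

set_option autoImplicit false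

namespace Cfsg.Agent.Lib.Helper67.BG

open Cfsg

/-- From S1405: a prime outside `σ(M)` is not in `α(M)`. -/
theorem pRankLE_two_of_not_mem_sigma {G : Type*} [Group G] [Finite G]
    (M : Subgroup G)
    (hα : IsPiHallOf (alpha M) (alphaCore M) M) (hασ : alphaCore M ≤ sigmaCore M)
    {p : ℕ} (hp : p.Prime) (hpσ : p ∉ sigma M) : PRankLE p 2 M := by
  by_contra hrank
  have hpα : p ∈ alpha M := ⟨hp, hrank⟩
  apply hpσ
  -- `p` divides `|M|`
  have hpM : p ∣ Nat.card M := by
    unfold PRankLE at hrank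
    push Not at hrank
    obtain ⟨A, hAc, hAp, hAcard⟩ := hrank
    have hA : IsPGroup p A := by
      intro ⟨a, ha⟩
      refine ⟨1, ?_⟩
      apply Subtype.ext
      rw [pow_one]
      exact hAp a ha
    have : Fact p.Prime := ⟨hp⟩
    obtain ⟨n, hn⟩ := IsPGroup.iff_card.mp hA
    have hn0 : n ≠ 0 := by
      intro h0
      rw [hn, h0, pow_zero] at hAcard
      have : 1 ≤ p ^ 2 := Nat.one_le_pow _ _ hp.pos
      omega
    have h1 : p ∣ Nat.card A := by rw [hn]; exact dvd_pow_self p hn0
    exact h1.trans (Subgroup.card_subgroup_dvd_card A)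
  have h2 : Nat.card (alphaCore M) * (alphaCore M).relIndex M = Nat.card M :=
    Cfsg.Agent.Lib.Helper23.card_mul_relIndex hα.1
  rw [← h2] at hpM
  have h3 : p ∣ Nat.card (alphaCore M) := by
    rcases (Nat.Prime.dvd_mul hp).mp hpM with h | h
    · exact h
    · exact absurd h (hα.2.2 p hp hpα)
  have h4 : p ∣ Nat.card (sigmaCore M) := h3.trans (Subgroup.card_dvd_of_le hασ)
  exact sigmaCore_isPi M p hp h4

theorem s1358_core {G : Type*} [Group G] [Finite G] (hG : Cfsg.IsMinSimpleOddOrder G)
    (h1350 : type_of% (@Cfsg.CfsgFrozen.S1350 G _ _ hG))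
    (h1405 : type_of% (@Cfsg.CfsgFrozen.S1405 G _ _ hG))
    (h1420 : type_of% (@Cfsg.CfsgFrozen.S1420 G _ _ hG))
    (M : Subgroup G) (hM : IsCoatom M) (K U : Subgroup G) (hKU : Cfsg.IsSigmaDecomposition M K U) :
    ∀ (p : ℕ), p.Prime → ∀ P : Sylow p U,
      IsMulCommutative (P : Subgroup U) ∧ Cfsg.PRankLE p 2 (P : Subgroup U) := by
  intro p hp P
  have : Fact p.Prime := ⟨hp⟩
  obtain ⟨hHall, -, -⟩ := h1350 M hM
  obtain ⟨hα, -, hασ, -, -⟩ := h1405 M hM
  obtain ⟨E, hE⟩ := exists_compl_sigmaCore M hHall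
  obtain ⟨hnil, -, -, -⟩ := h1420 M hM E hE
  have hUM : U ≤ M := hKU.compl.1
  -- `|U|` divides `|M : M_σ|`
  have hcard : Nat.card M = Nat.card U * Nat.card (K ⊔ sigmaCore M : Subgroup G) :=
    Cfsg.Agent.Lib.Helper23.card_of_isComplIn hKU.compl
  have hσdvd : Nat.card (sigmaCore M) ∣ Nat.card (K ⊔ sigmaCore M : Subgroup G) :=
    Subgroup.card_dvd_of_le le_sup_right
  have hrel : Nat.card (sigmaCore M) * (sigmaCore M).relIndex M = Nat.card M :=
    Cfsg.Agent.Lib.Helper23.card_mul_relIndex (sigmaCore_le M)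
  have hUdvd : Nat.card U ∣ (sigmaCore M).relIndex M := by
    obtain ⟨c, hc⟩ := hσdvd
    rw [hc] at hcard
    rw [hcard] at hrel
    have hpos : 0 < Nat.card (sigmaCore M) := Nat.card_pos
    have : (sigmaCore M).relIndex M = Nat.card U * c := by
      have h' : Nat.card (sigmaCore M) * (sigmaCore M).relIndex M =
          Nat.card (sigmaCore M) * (Nat.card U * c) := by rw [hrel]; ring
      exact Nat.eq_of_mul_eq_mul_left hpos h'
    rw [this]
    exact dvd_mul_right _ _
  -- the image of `P` in `G`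
  set N : Subgroup G := (P : Subgroup U).map U.subtype with hN
  have hNU : N ≤ U := Subgroup.map_subtype_le _
  have hNp : IsPGroup p N := by
    rw [hN]
    exact P.isPGroup'.map U.subtype
  have hcardN : Nat.card N = Nat.card (P : Subgroup U) :=
    Subgroup.card_map_of_injective U.subtype_injective
  -- if `p ∈ σ(M)` then `N` is trivial
  have hσbot : p ∈ sigma M → N = ⊥ := by
    intro hpσ
    by_contra hne
    have h1 : p ∣ Nat.card N := dvd_card_of_isPGroup_ne_bot hNp hne
    have h2 : p ∣ (sigmaCore M).relIndex M :=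
      (h1.trans (Subgroup.card_dvd_of_le hNU)).trans hUdvd
    exact hHall.2.2 p hp hpσ h2
  have hNcomm : IsMulCommutative N := by
    apply hnil N (hNU.trans hUM) hNp.isNilpotent
    intro q hq hqdvd hqσ
    have hqp : q = p := prime_eq_of_dvd_card_isPGroup hNp hq hqdvd
    subst hqp
    have := hσbot hqσ
    rw [this] at hqdvd
    rw [Subgroup.card_bot] at hqdvd
    exact hq.one_lt.ne' (Nat.dvd_one.mp hqdvd)
  constructor
  · constructor
    constructor
    intro a b
    have h1 := hNcomm.is_comm.comm (⟨U.subtype a, ⟨a, a.2, rfl⟩⟩ : N) ⟨U.subtype b, ⟨b, b.2, rfl⟩⟩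
    have h2 := congrArg (fun t : N => (t : G)) h1
    apply Subtype.ext
    apply Subtype.ext
    simpa using h2
  · by_cases hpσ : p ∈ sigma M
    · intro A _ _
      have hN1 : Nat.card (P : Subgroup U) = 1 := by
        rw [← hcardN, hσbot hpσ, Subgroup.card_bot]
      have hA : Nat.card A ∣ 1 := by
        rw [← hN1]
        exact Subgroup.card_subgroup_dvd_card A
      rw [Nat.dvd_one.mp hA]
      exact Nat.one_le_pow _ _ hp.pos
    · have hrM : PRankLE p 2 M := pRankLE_two_of_not_mem_sigma M hα hασ hp hpσ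
      have hrM' := (Cfsg.Agent.Lib.Helper24.pRankLE_subgroup_iff p 2 M).mp hrM
      have hrU : PRankLE p 2 U := by
        rw [Cfsg.Agent.Lib.Helper24.pRankLE_subgroup_iff]
        intro A hA hc he
        exact hrM' A (hA.trans hUM) hc he
      have hrU' := (Cfsg.Agent.Lib.Helper24.pRankLE_subgroup_iff p 2 (P : Subgroup U)).mp
      intro A hAc hAp
      have h1 := hrU (A.map (P : Subgroup U).subtype) ?_ ?_
      · rwa [Subgroup.card_map_of_injective (Subgroup.subtype_injective _)] at h1
      · constructor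
        constructor
        rintro ⟨_, ⟨a, ha, rfl⟩⟩ ⟨_, ⟨b, hb, rfl⟩⟩
        have h2 := hAc.is_comm.comm (⟨a, ha⟩ : A) ⟨b, hb⟩
        have h3 := congrArg (fun x : A => ((x : (P : Subgroup U)) : U)) h2
        apply Subtype.ext
        simpa using h3
      · rintro _ ⟨a, ha, rfl⟩
        have h2 := hAp a ha
        have h3 := congrArg (fun x : (P : Subgroup U) => (x : U)) h2
        simpa using h3

end Cfsg.Agent.Lib.Helper67.BG
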