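import Mathlib
import Cfsg.Prelude.Def_OddOrderLocal
import Cfsg.Statements.S1350
import Cfsg.Statements.S1437
import Cfsg.Statements.S1440
import Cfsg.Agent.Lib.Helper67.BG.Basics

/-!
Bender–Glauberman: if `M_F ≠ M_σ` in a standard factorisation `M = K U M_σ` then `U = 1`, `F(M)` is
a TI-subset of `G` and `K` has prime order (statement S1357).  Derived from S1350 (`M_σ` is a Hall
subgroup of `M`), S1437 and S1440, which are taken as hypotheses.
-/

set_option autoImplicit false

namespace Cfsg.Agent.Lib.Helper67.BG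

open Cfsg

/-- The image in `G` of a normal subgroup of `M` is normalized by `M`. -/
theorem le_normalizer_map_subtype {G : Type*} [Group G] (M : Subgroup G) (N : Subgroup M)
    [hN : N.Normal] : M ≤ Subgroup.normalizer ((N.map M.subtype : Subgroup G) : Set G) := by
  intro x hx
  rw [Subgroup.mem_normalizer_iff]
  have key : ∀ y : G, y ∈ M → ∀ w, w ∈ N.map M.subtype → y * w * y⁻¹ ∈ N.map M.subtype := by
    rintro y hy _ ⟨w, hw, rfl⟩
    refine ⟨⟨y, hy⟩ * w * ⟨y, hy⟩⁻¹, ?_, rfl⟩
    exact hN.conj_mem w hw ⟨y, hy⟩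
  intro w
  constructor
  · exact key x hx w
  · intro h
    have := key x⁻¹ (M.inv_mem hx) _ h
    simpa [mul_assoc] using this

instance fittingSubgroup_normal' (M : Type*) [Group M] : (fittingSubgroup M).Normal :=
  Subgroup.sSup_normal _ (fun _ h => h.1)

theorem fittingOf_normalizer {G : Type*} [Group G] (M : Subgroup G) :
    M ≤ Subgroup.normalizer (fittingOf M : Set G) :=
  le_normalizer_map_subtype M (fittingSubgroup M)

theorem fittingHallOf_le {G : Type*} [Group G] (M : Subgroup G) : fittingHallOf M ≤ M :=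
  Subgroup.map_subtype_le _

/-- A cyclic group all of whose elements have order dividing `q` has order at most `q`. -/
theorem card_le_of_isCyclic_of_pow {A : Type*} [Group A] [Finite A] [IsCyclic A] {q : ℕ}
    (hq : 0 < q) (h : ∀ a : A, a ^ q = 1) : Nat.card A ≤ q := by
  have h1 : Monoid.exponent A ∣ q := Monoid.exponent_dvd_of_forall_pow_eq_one h
  rw [IsCyclic.exponent_eq_card] at h1
  exact Nat.le_of_dvd hq h1

/-- A normal `q`-subgroup `Q` of `M` whose index in `M` is prime to `q` contains every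
`q`-subgroup of `M`. -/
theorem le_of_normal_sylow {G : Type*} [Group G] [Finite G] {q : ℕ} [Fact q.Prime]
    {M Q A : Subgroup G} (hQM : Q ≤ M) (hQn : M ≤ Subgroup.normalizer (Q : Set G))
    (hQq : IsPGroup q Q) (hidx : ¬ q ∣ Q.relIndex M) (hAM : A ≤ M) (hA : IsPGroup q A) :
    A ≤ Q := by
  have hQ' : IsPGroup q (Q.subgroupOf M) :=
    hQq.comap_of_injective M.subtype M.subtype_injective
  have hnormal : (Q.subgroupOf M).Normal :=
    (Subgroup.normal_subgroupOf_iff_le_normalizer hQM).mpr hQn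
  let P : Sylow q M := hQ'.toSylow hidx
  have hPn : (P : Subgroup M).Normal := by
    have : (P : Subgroup M) = Q.subgroupOf M := IsPGroup.toSylow_coe hQ' hidx
    rw [this]; exact hnormal
  have hA' : IsPGroup q (A.subgroupOf M) :=
    hA.comap_of_injective M.subtype M.subtype_injective
  obtain ⟨P', hP'⟩ := hA'.exists_le_sylow
  have huniq := Sylow.unique_of_normal P hPn
  have hPP' : P' = P := Subsingleton.elim _ _
  intro a ha
  have h1 : (⟨a, hAM ha⟩ : M) ∈ A.subgroupOf M := Subgroup.mem_subgroupOf.mpr ha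
  have h2 := hP' h1
  rw [hPP'] at h2
  have h3 : (⟨a, hAM ha⟩ : M) ∈ Q.subgroupOf M := by
    have : (P : Subgroup M) = Q.subgroupOf M := IsPGroup.toSylow_coe hQ' hidx
    rw [← this]; exact h2
  exact Subgroup.mem_subgroupOf.mp h3

theorem s1357_core {G : Type*} [Group G] [Finite G] (hG : Cfsg.IsMinSimpleOddOrder G)
    (h1350 : type_of% (@Cfsg.CfsgFrozen.S1350 G _ _ hG))
    (h1437 : type_of% (@Cfsg.CfsgFrozen.S1437 G _ _ hG))
    (h1440 : type_of% (@Cfsg.CfsgFrozen.S1440 G _ _ hG))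
    (M : Subgroup G) (hM : IsCoatom M) (K U : Subgroup G) (hKU : Cfsg.IsSigmaDecomposition M K U)
    (hne : Cfsg.fittingHallOf M ≠ Cfsg.sigmaCore M) :
    U = ⊥ ∧ Cfsg.IsTISubset (Cfsg.fittingOf M : Set G) ∧ (Nat.card K).Prime := by
  obtain ⟨hU, -, hKp, hqp, -, hqβ, Q, hQH, hQn, hQq, hQidx, -⟩ := h1437 M hM K U hKU hne
  obtain ⟨hHall, -, -⟩ := h1350 M hM
  refine ⟨hU, ?_, hKp⟩
  intro g hg x hx hgx
  by_contra hx1
  have hgM : g ∉ M := fun h => hg (fittingOf_normalizer M h)
  have hg'M : g⁻¹ ∉ M := fun h => hgM (by simpa using M.inv_mem h)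
  have hX : fittingOf M ⊓ (fittingOf M).map (MulAut.conj g⁻¹).toMonoidHom ≠ ⊥ := by
    intro h
    have hmem : x ∈ fittingOf M ⊓ (fittingOf M).map (MulAut.conj g⁻¹).toMonoidHom := by
      refine ⟨hx, ⟨g * x * g⁻¹, hgx, ?_⟩⟩
      change g⁻¹ * (g * x * g⁻¹) * g⁻¹⁻¹ = x
      group
    rw [h, Subgroup.mem_bot] at hmem
    exact hx1 hmem
  obtain ⟨-, -, hcases⟩ := h1440 M hM K U hKU g⁻¹ hg'M hX
  -- the prime `q = |K*|`
  generalize hqdef : Nat.card ↥(sigmaCore M ⊓ Subgroup.centralizer (K : Set G)) = q at *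
  have hqF : Fact q.Prime := ⟨hqp⟩
  have hQM : Q ≤ M := hQH.trans (fittingHallOf_le M)
  -- `q ∈ σ(M)`
  have hqσ : q ∈ sigma M := by
    apply sigmaCore_isPi M q hqp
    rw [← hqdef]
    exact Subgroup.card_dvd_of_le inf_le_left
  -- `q` does not divide `|M : Q|`
  have hQidxM : ¬ q ∣ Q.relIndex M := by
    intro hdvd
    have h1 : (Q ⊓ sigmaCore M).relIndex (sigmaCore M) * (sigmaCore M).relIndex M =
        (Q ⊓ sigmaCore M).relIndex M :=
      Subgroup.relIndex_mul_relIndex _ _ _ inf_le_right (sigmaCore_le M)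
    have h2 : (Q ⊓ sigmaCore M).relIndex Q * Q.relIndex M = (Q ⊓ sigmaCore M).relIndex M :=
      Subgroup.relIndex_mul_relIndex _ _ _ inf_le_left hQM
    rw [Subgroup.inf_relIndex_right] at h1
    have h3 : q ∣ Q.relIndex (sigmaCore M) * (sigmaCore M).relIndex M := by
      rw [h1, ← h2]
      exact dvd_mul_of_dvd_right hdvd _
    rcases (Nat.Prime.dvd_mul hqp).mp h3 with h | h
    · exact hQidx h
    · exact hHall.2.2 q hqp hqσ h
  -- `Q` is not cyclic
  have hQnc : ¬ IsCyclic Q := by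
    intro hcyc
    have hα : q ∈ alpha M := hqβ.1
    apply hα.2
    rw [Cfsg.Agent.Lib.Helper24.pRankLE_subgroup_iff]
    intro A hAM hAc hAq
    have hA : IsPGroup q A := by
      intro ⟨a, ha⟩
      refine ⟨1, ?_⟩
      apply Subtype.ext
      rw [pow_one]
      exact hAq a ha
    have hAQ : A ≤ Q := le_of_normal_sylow hQM hQn hQq hQidxM hAM hA
    have hAcyc : IsCyclic A := by
      have e : A ≃* (A.subgroupOf Q) := (Subgroup.subgroupOfEquivOfLe hAQ).symm
      have : IsCyclic (A.subgroupOf Q) := inferInstance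
      exact isCyclic_of_surjective e.symm.toMonoidHom e.symm.surjective
    have h1 : Nat.card A ≤ q := by
      apply card_le_of_isCyclic_of_pow hqp.pos
      rintro ⟨a, ha⟩
      apply Subtype.ext
      exact hAq a ha
    calc Nat.card A ≤ q := h1
      _ = q ^ 1 := (pow_one q).symm
      _ ≤ q ^ 2 := Nat.pow_le_pow_right hqp.pos (by norm_num)
  -- the two cyclic cases are impossible
  have key : ∀ p : ℕ, p.Prime → p ∉ beta M → IsCyclic (pPrimeCore p ↥(fittingHallOf M)) → False := by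
    intro p hp hpβ hcyc
    have hqp' : q ≠ p := fun h => hpβ (h ▸ hqβ)
    have hQ'n : (Q.subgroupOf (fittingHallOf M)).Normal :=
      (Subgroup.normal_subgroupOf_iff_le_normalizer hQH).mpr ((fittingHallOf_le M).trans hQn)
    have hcard : Nat.card (Q.subgroupOf (fittingHallOf M)) = Nat.card Q :=
      Nat.card_congr (Subgroup.subgroupOfEquivOfLe hQH).toEquiv
    have hcop : (Nat.card (Q.subgroupOf (fittingHallOf M))).Coprime p := by
      rw [hcard]
      obtain ⟨n, hn⟩ := IsPGroup.iff_card.mp hQq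
      rw [hn]
      exact Nat.Coprime.pow_left n ((Nat.coprime_primes hqp hp).mpr hqp')
    have hle : Q.subgroupOf (fittingHallOf M) ≤ pPrimeCore p ↥(fittingHallOf M) :=
      le_sSup ⟨hQ'n, hcop⟩
    apply hQnc
    have e1 : Q ≃* (Q.subgroupOf (fittingHallOf M)) := (Subgroup.subgroupOfEquivOfLe hQH).symm
    have e2 : (Q.subgroupOf (fittingHallOf M)) ≃*
        ((Q.subgroupOf (fittingHallOf M)).subgroupOf (pPrimeCore p ↥(fittingHallOf M))) :=
      (Subgroup.subgroupOfEquivOfLe hle).symm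
    have : IsCyclic ((Q.subgroupOf (fittingHallOf M)).subgroupOf
        (pPrimeCore p ↥(fittingHallOf M))) := inferInstance
    exact isCyclic_of_surjective (e1.trans e2).symm.toMonoidHom (e1.trans e2).symm.surjective
  rcases hcases with ⟨hK, -⟩ | ⟨p, hp, -, -, hpβ, -, hcyc, -⟩ | ⟨p, hp, -, -, hpβ, hcyc, -⟩
  · rw [hK, Subgroup.card_bot] at hKp
    exact Nat.not_prime_one hKp
  · exact key p hp hpβ hcyc
  · exact key p hp hpβ hcyc

end Cfsg.Agent.Lib.Helper67.BG
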