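import Mathlib
import Cfsg.Prelude.Def_OddOrderLocal
import Cfsg.Agent.Lib.Helper67.BG.Basics
import Cfsg.Agent.Lib.Helper67.BG.S1357Core
import Cfsg.Agent.Lib.Helper67.SylowLemmas
import Cfsg.Agent.Lib.Helper1.HallLe
import Cfsg.Agent.Lib.Helper20.BG.S1408Core
import Cfsg.Agent.Lib.Helper35.BG.Basic
import Cfsg.Agent.Lib.Helper75.BGUtil

/-!
Hall subgroups of solvable subgroups containing a given `π`-subgroup, the `κ`-criterion, and
elementary abelian subgroups inside a complement of `M_σ` (Bender–Glauberman chain utilities).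
-/

set_option autoImplicit false

namespace Cfsg.Agent.Lib.Helper67.BG

open Cfsg Cfsg.Agent.Lib.Helper46

/-- Every positive integer is the product of a `π`-number and a `π'`-number. -/
theorem exists_pi_factor (π : Set ℕ) : ∀ n : ℕ, n ≠ 0 →
    ∃ a b : ℕ, n = a * b ∧ (∀ p : ℕ, p.Prime → p ∣ a → p ∈ π) ∧
      (∀ p : ℕ, p.Prime → p ∣ b → p ∉ π) := by
  intro n
  induction n using Nat.strong_induction_on with
  | _ n ih =>
    intro hn
    by_cases h1 : n = 1
    · refine ⟨1, 1, by simp [h1], ?_, ?_⟩ <;> intro p hp hdvd <;>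
        exact absurd (Nat.dvd_one.mp hdvd) hp.one_lt.ne'
    · have hp : (n.minFac).Prime := Nat.minFac_prime h1
      obtain ⟨m, hm⟩ := Nat.minFac_dvd n
      have hm0 : m ≠ 0 := by
        rintro rfl
        rw [mul_zero] at hm
        exact hn hm
      have hlt : m < n := by
        have h2 := lt_mul_of_one_lt_left (Nat.pos_of_ne_zero hm0) hp.one_lt
        calc m < n.minFac * m := h2
          _ = n := hm.symm
      obtain ⟨a, b, hab, ha, hb⟩ := ih m hlt hm0
      by_cases hπ : n.minFac ∈ π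
      · refine ⟨n.minFac * a, b, ?_, ?_, hb⟩
        · calc n = n.minFac * m := hm
            _ = n.minFac * (a * b) := by rw [hab]
            _ = n.minFac * a * b := by ring
        · intro p hp' hdvd
          rcases (Nat.Prime.dvd_mul hp').mp hdvd with h | h
          · rw [(Nat.prime_dvd_prime_iff_eq hp' hp).mp h]; exact hπ
          · exact ha p hp' h
      · refine ⟨a, n.minFac * b, ?_, ha, ?_⟩
        · calc n = n.minFac * m := hm
            _ = n.minFac * (a * b) := by rw [hab]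
            _ = a * (n.minFac * b) := by ring
        · intro p hp' hdvd
          rcases (Nat.Prime.dvd_mul hp').mp hdvd with h | h
          · rw [(Nat.prime_dvd_prime_iff_eq hp' hp).mp h]; exact hπ
          · exact hb p hp' h

theorem relIndex_map_subtype {G : Type*} [Group G] (M : Subgroup G) (K₀ : Subgroup M) :
    (K₀.map M.subtype).relIndex M = K₀.index := by
  unfold Subgroup.relIndex
  congr 1
  ext x
  simp [Subgroup.mem_subgroupOf]

/-- In a solvable subgroup `M`, every `π`-subgroup lies in a Hall `π`-subgroup of `M`. -/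
theorem exists_piHallOf_ge {G : Type*} [Group G] [Finite G] (π : Set ℕ) (M : Subgroup G)
    (hsolv : Group.IsSolvable M) (X : Subgroup G) (hXM : X ≤ M)
    (hX : ∀ p : ℕ, p.Prime → p ∣ Nat.card X → p ∈ π) :
    ∃ K : Subgroup G, IsPiHallOf π K M ∧ X ≤ K := by
  obtain ⟨a, b, hab, ha, hb⟩ := exists_pi_factor π (Nat.card M) Nat.card_pos.ne'
  have hcop : a.Coprime b := by
    apply Nat.Coprime.symm
    apply Nat.coprime_of_dvd
    intro p hp h1 h2
    exact hb p hp h1 (ha p hp h2)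
  have hXc : (Nat.card (X.subgroupOf M)).Coprime b := by
    apply Nat.Coprime.symm
    apply Nat.coprime_of_dvd
    intro p hp h1 h2
    rw [Nat.card_congr (Subgroup.subgroupOfEquivOfLe hXM).toEquiv] at h2
    exact hb p hp h1 (hX p hp h2)
  obtain ⟨K₀, hK₀, hXK⟩ := Cfsg.Agent.Lib.Helper1.hall_le a b hab hcop (X.subgroupOf M) hXc
  have ha0 : 0 < a := by
    rcases Nat.eq_zero_or_pos a with h | h
    · rw [h, zero_mul] at hab
      exact absurd hab Nat.card_pos.ne'
    · exact h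
  refine ⟨K₀.map M.subtype, ⟨Subgroup.map_subtype_le _, ?_, ?_⟩, ?_⟩
  · intro p hp hdvd
    rw [Subgroup.card_map_of_injective M.subtype_injective, hK₀] at hdvd
    exact ha p hp hdvd
  · intro p hp hpπ hdvd
    rw [relIndex_map_subtype] at hdvd
    have h2 : Nat.card K₀ * K₀.index = Nat.card M := Subgroup.card_mul_index K₀
    rw [hK₀, hab] at h2
    have h3 : K₀.index = b := Nat.eq_of_mul_eq_mul_left ha0 h2
    rw [h3] at hdvd
    exact hb p hp hdvd hpπ
  · intro x hx
    exact ⟨⟨x, hXM hx⟩, hXK (Subgroup.mem_subgroupOf.mpr hx), rfl⟩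

theorem isElementaryAbelian_map_conj {G : Type*} [Group G] {p : ℕ} {A : Subgroup G}
    (hA : IsElementaryAbelian p A) (g : G) :
    IsElementaryAbelian p (A.map (MulAut.conj g).toMonoidHom) := by
  refine ⟨⟨⟨?_⟩⟩, ?_⟩
  · rintro ⟨_, ⟨a, ha, rfl⟩⟩ ⟨_, ⟨b, hb, rfl⟩⟩
    apply Subtype.ext
    have h1 := Cfsg.Agent.Lib.Helper20.BG.ea_comm hA a ha b hb
    change (MulAut.conj g) a * (MulAut.conj g) b = (MulAut.conj g) b * (MulAut.conj g) a
    rw [← map_mul, ← map_mul, h1]
  · rintro _ ⟨a, ha, rfl⟩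
    change (MulAut.conj g) a ^ p = 1
    rw [← map_pow, hA.2 a ha, map_one]

/-- The `κ`-criterion: a prime `r ∉ σ(M)` for which `M` has `r`-rank one and some element of order
`r` of `M` centralizes a non-identity element of `M_σ` lies in `κ(M)`. -/
theorem mem_kappa_of_rank_one {G : Type*} [Group G] [Finite G] (hodd : Odd (Nat.card G))
    (M : Subgroup G) (r : ℕ) [hr : Fact r.Prime] (hrσ : r ∉ sigma M) (hr1 : PRankLE r 1 M)
    (z : G) (hzM : z ∈ M) (hz : orderOf z = r) (y : G) (hy : y ∈ sigmaCore M) (hy1 : y ≠ 1)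
    (hzy : z * y = y * z) : r ∈ kappa M := by
  have hrM : r ∣ Nat.card M := by
    have h1 := orderOf_dvd_natCard (⟨z, hzM⟩ : M)
    rw [Subgroup.orderOf_mk, hz] at h1
    exact h1
  have hr2 : r ≠ 2 := by
    intro h2
    have h3 : 2 ∣ Nat.card G := by
      rw [← h2]
      exact hrM.trans (Subgroup.card_subgroup_dvd_card M)
    exact (Nat.not_even_iff_odd.mpr hodd) (even_iff_two_dvd.mpr h3)
  have hz1 : z ≠ 1 := by
    intro h
    rw [h, orderOf_one] at hz
    exact hr.out.one_lt.ne hz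
  refine ⟨hr.out, hrM, hrσ, fun P => ⟨?_, ?_⟩⟩
  · exact Cfsg.Agent.Lib.Helper75.BG.isCyclic_sylow_of_rank_one M M le_rfl r hr2 hr1 P
  · have hpow : (⟨z, hzM⟩ : M) ^ r ^ 1 = 1 := by
      apply Subtype.ext
      rw [pow_one]
      change z ^ r = 1
      rw [← hz]
      exact pow_orderOf_eq_one z
    obtain ⟨d, -, hd⟩ := exists_conj_mem_sylow_of_le P ⊤ le_top (⟨z, hzM⟩ : M)
      (Subgroup.mem_top _) 1 hpow
    refine ⟨d * ⟨z, hzM⟩ * d⁻¹, hd, ?_, (d : G) * y * (d : G)⁻¹, ?_, ?_, ?_⟩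
    · intro h
      have h1 : (⟨z, hzM⟩ : M) = 1 := by
        have h2 := congrArg (fun t => d⁻¹ * t * d) h
        simpa [mul_assoc] using h2
      exact hz1 (congrArg Subtype.val h1)
    · exact (Subgroup.mem_normalizer_iff.mp (sigmaCore_normalizer M d.2) y).mp hy
    · intro h
      exact hy1 (conj_eq_one_iff.mp h)
    · change (d : G) * z * (d : G)⁻¹ * ((d : G) * y * (d : G)⁻¹) =
        (d : G) * y * (d : G)⁻¹ * ((d : G) * z * (d : G)⁻¹)
      calc (d : G) * z * (d : G)⁻¹ * ((d : G) * y * (d : G)⁻¹)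
          = (d : G) * (z * y) * (d : G)⁻¹ := by group
        _ = (d : G) * (y * z) * (d : G)⁻¹ := by rw [hzy]
        _ = (d : G) * y * (d : G)⁻¹ * ((d : G) * z * (d : G)⁻¹) := by group

/-- A prime of `τ₂(M)` is not in `κ(M)`. -/
theorem not_mem_kappa_of_mem_tau2 {G : Type*} [Group G] [Finite G] {M : Subgroup G} {p : ℕ}
    (hp : p ∈ tau2 M) : p ∉ kappa M := by
  intro hκ
  obtain ⟨hpp, -, -, hr1⟩ := hp
  obtain ⟨-, -, -, hcyc⟩ := hκ
  apply hr1
  intro A hAc hAp
  have : Fact p.Prime := ⟨hpp⟩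
  have hA : IsPGroup p A := by
    intro ⟨a, ha⟩
    refine ⟨1, ?_⟩
    apply Subtype.ext
    rw [pow_one]
    exact hAp a ha
  obtain ⟨P, hP⟩ := hA.exists_le_sylow
  have hPc : IsCyclic (P : Subgroup M) := (hcyc P).1
  have hAcyc : IsCyclic A := by
    have e : A ≃* (A.subgroupOf (P : Subgroup M)) := (Subgroup.subgroupOfEquivOfLe hP).symm
    have : IsCyclic (A.subgroupOf (P : Subgroup M)) := inferInstance
    exact isCyclic_of_surjective e.symm.toMonoidHom e.symm.surjective
  have h1 : Nat.card A ≤ p :=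
    card_le_of_isCyclic_of_pow hpp.pos (fun a : A => Subtype.ext (hAp a a.2))
  simpa using h1

/-- For `q ∈ τ₂(M)`, a complement `E` of `M_σ` in `M` contains an elementary abelian subgroup of
order `q ^ 2`. -/
theorem exists_ea_sq_le_compl {G : Type*} [Group G] [Finite G] {M E : Subgroup G}
    (hE : IsComplIn E (sigmaCore M) M) {q : ℕ} [Fact q.Prime] (hq : q ∈ tau2 M) :
    ∃ A : Subgroup G, A ≤ E ∧ IsElementaryAbelian q A ∧ Nat.card A = q ^ 2 := by
  obtain ⟨hqp, hqσ, hr2, hr1⟩ := hq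
  obtain ⟨A', hA'M, hA'e, hA'c⟩ := Cfsg.Agent.Lib.Helper20.BG.exists_ea_sq M q hr2 hr1
  obtain ⟨R, hR, -⟩ := Cfsg.Agent.Lib.Helper35.BG.exists_isSylowIn_ge (p := q) (Q := ⊥) (H := E)
    IsPGroup.of_bot bot_le
  have hcard : Nat.card M = Nat.card E * Nat.card (sigmaCore M) :=
    Cfsg.Agent.Lib.Helper23.card_of_isComplIn hE
  have hfac : (Nat.card M).factorization q = (Nat.card E).factorization q := by
    rw [hcard, Nat.factorization_mul Nat.card_pos.ne' Nat.card_pos.ne']
    have h0 : (Nat.card (sigmaCore M)).factorization q = 0 :=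
      Nat.factorization_eq_zero_of_not_dvd (fun h => hqσ (sigmaCore_isPi M q hqp h))
    simp [h0]
  have hRM : IsSylowIn q R M := ⟨hR.1.trans hE.1, by rw [hR.2, hfac]⟩
  obtain ⟨R', hR', hA'R'⟩ := Cfsg.Agent.Lib.Helper35.BG.exists_isSylowIn_ge
    (Cfsg.Agent.Lib.Helper20.BG.isPGroup_of_ea hA'e) hA'M
  obtain ⟨g, -, hg⟩ := hR'.exists_conj hRM
  refine ⟨A'.map (MulAut.conj g).toMonoidHom, ?_, isElementaryAbelian_map_conj hA'e g, ?_⟩
  · refine (Subgroup.map_mono hA'R').trans ?_
    rw [← hg]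
    exact hR.1
  · rw [Cfsg.Agent.Lib.Helper35.BG.card_map_conj, hA'c]

end Cfsg.Agent.Lib.Helper67.BG
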