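import Mathlib
import Cfsg.Prelude.Def_OddOrderLocal
import Cfsg.Agent.Lib.Helper67.BG.Basics
import Cfsg.Agent.Lib.Helper67.BG.S1357Core
import Cfsg.Agent.Lib.Helper21.Fit
import Cfsg.Agent.Lib.Helper23.Transitivity3
import Cfsg.Agent.Lib.Helper75.BGUtil

/-!
Fitting-subgroup utilities for the Bender–Glauberman chain: `π`-decomposition of a nilpotent group,
`F(M_σ) ≤ F(M)`, normal nilpotent subgroups lie in `F(M)`.
-/

set_option autoImplicit false

namespace Cfsg.Agent.Lib.Helper67.BG

open Cfsg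

/-- A finite nilpotent group is generated by `O_π` and `O_π'` when `π ∪ π'` contains all primes. -/
theorem piCore_sup_piCore_eq_top (N : Type*) [Group N] [Finite N] [Group.IsNilpotent N]
    (π π' : Set ℕ) (h : ∀ p : ℕ, p.Prime → p ∈ π ∨ p ∈ π') :
    piCore π N ⊔ piCore π' N = ⊤ := by
  have hnc : NormalizerCondition N := Group.normalizerCondition_of_isNilpotent
  have hS : ∀ (p : ℕ) [Fact p.Prime] (P : Sylow p N), (P : Subgroup N) ≤ piCore π N ⊔ piCore π' N := by
    intro p hp P
    have hPn : (P : Subgroup N).Normal := Sylow.normal_of_normalizerCondition hnc P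
    have hprime : ∀ q : ℕ, q.Prime → q ∣ Nat.card (P : Subgroup N) → q = p := by
      intro q hq hdvd
      obtain ⟨n, hn⟩ := IsPGroup.iff_card.mp P.isPGroup'
      rw [hn] at hdvd
      exact (Nat.prime_dvd_prime_iff_eq hq hp.out).mp (hq.dvd_of_dvd_pow hdvd)
    rcases h p hp.out with hpπ | hpπ
    · refine le_trans ?_ le_sup_left
      exact le_sSup ⟨hPn, fun q hq hdvd => (hprime q hq hdvd) ▸ hpπ⟩
    · refine le_trans ?_ le_sup_right
      exact le_sSup ⟨hPn, fun q hq hdvd => (hprime q hq hdvd) ▸ hpπ⟩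
  have hdvd : Nat.card N ∣ Nat.card (piCore π N ⊔ piCore π' N : Subgroup N) := by
    rw [← Nat.factorization_prime_le_iff_dvd Nat.card_pos.ne' Nat.card_pos.ne']
    intro p hp
    have : Fact p.Prime := ⟨hp⟩
    obtain ⟨P⟩ : Nonempty (Sylow p N) := inferInstance
    have h1 : Nat.card (P : Subgroup N) = p ^ (Nat.card N).factorization p :=
      Sylow.card_eq_multiplicity P
    have h2 : p ^ (Nat.card N).factorization p ∣ Nat.card (piCore π N ⊔ piCore π' N : Subgroup N) := by
      rw [← h1]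
      exact Subgroup.card_dvd_of_le (hS p P)
    exact (hp.pow_dvd_iff_le_factorization Nat.card_pos.ne').mp h2
  apply Subgroup.eq_top_of_card_eq
  exact Nat.dvd_antisymm (Subgroup.card_subgroup_dvd_card _) hdvd

theorem fittingOf_le {G : Type*} [Group G] (M : Subgroup G) : fittingOf M ≤ M :=
  Subgroup.map_subtype_le _

theorem fittingOf_isNilpotent {G : Type*} [Group G] [Finite G] (M : Subgroup G) :
    Group.IsNilpotent (fittingOf M) := by
  have hnil : Group.IsNilpotent (Cfsg.fittingSubgroup M) :=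
    Cfsg.Agent.Lib.Helper71.fittingSubgroup_isNilpotent
  exact Group.nilpotent_of_mulEquiv
    ((Cfsg.fittingSubgroup M).equivMapOfInjective M.subtype M.subtype_injective)

/-- A nilpotent subgroup of `M` normalized by `M` lies in `F(M)`. -/
theorem le_fittingOf_of_normal_nilpotent {G : Type*} [Group G] [Finite G] {M W : Subgroup G}
    (hWM : W ≤ M) (hn : M ≤ Subgroup.normalizer (W : Set G)) (hnil : Group.IsNilpotent W) :
    W ≤ fittingOf M := by
  have hnormal : (W.subgroupOf M).Normal :=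
    (Subgroup.normal_subgroupOf_iff_le_normalizer hWM).mpr hn
  have hnil' : Group.IsNilpotent (W.subgroupOf M) :=
    Group.nilpotent_of_mulEquiv (Subgroup.subgroupOfEquivOfLe hWM).symm
  have hle : W.subgroupOf M ≤ Cfsg.fittingSubgroup M :=
    Cfsg.Agent.Lib.Helper71.le_fittingSubgroup _ hnil'
  intro w hw
  exact ⟨⟨w, hWM hw⟩, hle (Subgroup.mem_subgroupOf.mpr hw), rfl⟩

/-- `F(M_σ) ≤ F(M)`. -/
theorem fittingOf_sigmaCore_le {G : Type*} [Group G] [Finite G] (M : Subgroup G) :
    fittingOf (sigmaCore M) ≤ fittingOf M := by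
  rintro w ⟨f, hf, rfl⟩
  let e : ↥(piCore (sigma M) M) ≃* ↥(sigmaCore M) :=
    (piCore (sigma M) M).equivMapOfInjective M.subtype M.subtype_injective
  have h1 : e.symm f ∈ Cfsg.fittingSubgroup ↥(piCore (sigma M) M) :=
    Cfsg.Agent.Lib.Helper29.fittingSubgroup_map_le e.symm ⟨f, hf, rfl⟩
  have h2 : ((e.symm f : ↥(piCore (sigma M) M)) : M) ∈ Cfsg.fittingSubgroup M :=
    Cfsg.Agent.Lib.Helper21.fittingSubgroup_map_subtype_le_of_normal (piCore (sigma M) M)
      ⟨_, h1, rfl⟩
  refine ⟨((e.symm f : ↥(piCore (sigma M) M)) : M), h2, ?_⟩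
  have h3 : ((e (e.symm f) : ↥(sigmaCore M)) : G) = M.subtype ((e.symm f : ↥(piCore (sigma M) M)) : M) :=
    Subgroup.coe_equivMapOfInjective_apply _ _ _ _
  rw [e.apply_symm_apply] at h3
  exact h3.symm

end Cfsg.Agent.Lib.Helper67.BG
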