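import Mathlib
import Cfsg.Prelude.Def_OddOrderLocal
import Cfsg.Agent.S1457
import Cfsg.Agent.Lib.Helper35.BG.Basic
import Cfsg.Agent.Lib.Helper75.BGUtil
import Cfsg.Agent.Lib.Helper84.PCoreBasic
import Cfsg.Agent.Lib.Helper22.PComp
import Cfsg.Agent.Lib.Helper33.Focal

/-!
Fusion control for a Sylow `p`-subgroup `P` with an abelian normal subgroup `A`
(helper67, for Bender–Glauberman 9.5):
if `I` contains `N_G(T)` for every `T` with `A ≤ T ≤ P` and the normalizers of the nontrivial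
subgroups of `P` are solvable of odd order, then `I` controls fusion in `P`, and
`P ∩ G' ≤ I'`.
-/

set_option autoImplicit false

namespace Cfsg.Agent.Lib.Helper67.BG

open Cfsg Cfsg.Agent.Lib.Helper46 Cfsg.Agent.Lib.Helper35.BG
open scoped Pointwise commutatorElement

/-- Frattini-type factorization: every element of `H` is `c * m` with `c ∈ O_{p'}(H)` and
`m` normalizing `S ∩ O_{p',p}(H)`. -/
theorem frattini_pPrimePCore {H : Type*} [Group H] [Finite H] (p : ℕ) [Fact p.Prime]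
    (S : Sylow p H) (n : H) :
    ∃ c ∈ pPrimeCore p H, ∃ m ∈ Subgroup.normalizer
        ((((S : Subgroup H) ⊓ pPrimePCore p H : Subgroup H)) : Set H), n = c * m := by
  have hC₀n : (pPrimeCore p H).Normal := Cfsg.Agent.Lib.Helper22.pPrimeCore_normal' p H
  set C₀ := pPrimeCore p H with hC₀
  set π := QuotientGroup.mk' C₀ with hπ
  have hLdef : pPrimePCore p H = (pCore p (H ⧸ C₀)).comap π := rfl
  have hOn : (pCore p (H ⧸ C₀)).Normal := Cfsg.pCore_normal p _
  have hLn : (pPrimePCore p H).Normal := by rw [hLdef]; exact Subgroup.Normal.comap hOn _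
  set L := pPrimePCore p H with hL
  -- every element of `L` is congruent to an element of `S` modulo `C₀`
  have h1 : ∀ l ∈ L, ∃ s ∈ (S : Subgroup H), l * s⁻¹ ∈ C₀ := by
    intro l hl
    have hl' : π l ∈ pCore p (H ⧸ C₀) := by rw [hLdef] at hl; exact hl
    have h2 := Cfsg.Agent.Lib.Helper84.pCore_le_sylow p
      (S.mapSurjective (QuotientGroup.mk'_surjective C₀)) hl'
    rw [Sylow.coe_mapSurjective] at h2
    obtain ⟨s, hs, hsl⟩ := h2
    refine ⟨s, hs, ?_⟩
    have : π (l * s⁻¹) = 1 := by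
      rw [map_mul, map_inv]
      have : (QuotientGroup.mk' C₀) s = π l := hsl
      rw [← this]; exact mul_inv_cancel _
    rw [hπ, QuotientGroup.mk'_apply, QuotientGroup.eq_one_iff] at this
    exact this
  set T₁ := (S : Subgroup H) ⊓ L with hT₁
  set J := C₀ ⊔ (S : Subgroup H) with hJ
  have hLJ : L ≤ J := by
    intro l hl
    obtain ⟨s, hs, hc⟩ := h1 l hl
    have : l = l * s⁻¹ * s := by group
    rw [this]
    exact mul_mem ((le_sup_left : C₀ ≤ J) hc) ((le_sup_right : (S : Subgroup H) ≤ J) hs)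
  have hSylTop : IsSylowIn p (S : Subgroup H) ⊤ :=
    ⟨le_top, by rw [Subgroup.card_top]; exact S.card_eq_multiplicity⟩
  have hSylJ : IsSylowIn p (S : Subgroup H) J := sylIn_mono hSylTop le_sup_right le_top
  set Q := T₁.map (MulAut.conj n).toMonoidHom with hQ
  have hQp : IsPGroup p Q := isPGroup_map_conj (S.isPGroup'.to_le inf_le_left) n
  have hQL : Q ≤ L := by
    rintro _ ⟨t, ht, rfl⟩
    exact hLn.conj_mem t ht.2 n
  obtain ⟨R, hR, hQR⟩ := exists_isSylowIn_ge hQp (hQL.trans hLJ)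
  obtain ⟨j, hjJ, rfl⟩ := hSylJ.exists_conj hR
  have hjn : j⁻¹ * n ∈ Subgroup.normalizer (T₁ : Set H) := by
    apply Cfsg.Agent.Lib.Helper75.BG.mem_normalizer_of_map_le
    rintro _ ⟨t, ht, rfl⟩
    have h3 : n * t * n⁻¹ ∈ Q := ⟨t, ht, rfl⟩
    have h4 := hQR h3
    rw [mem_map_conj_iff] at h4
    have h5 : (MulAut.conj (j⁻¹ * n)).toMonoidHom t = j⁻¹ * (n * t * n⁻¹) * j := by
      simp [MulAut.conj_apply, mul_assoc]
    rw [h5]
    refine Subgroup.mem_inf.mpr ⟨h4, ?_⟩
    have h6 := hLn.conj_mem t ht.2 (j⁻¹ * n)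
    have h7 : j⁻¹ * n * t * (j⁻¹ * n)⁻¹ = j⁻¹ * (n * t * n⁻¹) * j := by group
    rw [h7] at h6; exact h6
  -- decompose `j`
  have hjmul : j ∈ (C₀ : Set H) * ((S : Subgroup H) : Set H) := by
    have := Subgroup.normal_mul C₀ (S : Subgroup H)
    rw [← this]; exact hjJ
  obtain ⟨c, hc, s, hs, rfl⟩ := hjmul
  refine ⟨c, hc, s * ((c * s)⁻¹ * n), ?_, by group⟩
  refine mul_mem ?_ hjn
  -- `s ∈ S` normalizes `S ∩ L`
  apply Cfsg.Agent.Lib.Helper75.BG.mem_normalizer_of_map_le
  rintro _ ⟨t, ht, rfl⟩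
  refine Subgroup.mem_inf.mpr ⟨?_, ?_⟩
  · simp only [MulEquiv.coe_toMonoidHom, MulAut.conj_apply]
    exact mul_mem (mul_mem hs ht.1) (inv_mem hs)
  · simp only [MulEquiv.coe_toMonoidHom, MulAut.conj_apply]
    exact hLn.conj_mem t ht.2 s

/-- A normal `p`-subgroup lies in `O_{p',p}`. -/
theorem le_pPrimePCore_of_normal_pGroup {H : Type*} [Group H] (p : ℕ) [Fact p.Prime]
    {X : Subgroup H} (hXn : X.Normal) (hXp : IsPGroup p X) : X ≤ pPrimePCore p H := by
  have hC₀n : (pPrimeCore p H).Normal := Cfsg.Agent.Lib.Helper22.pPrimeCore_normal' p H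
  intro x hx
  show QuotientGroup.mk' (pPrimeCore p H) x ∈ pCore p (H ⧸ pPrimeCore p H)
  have h1 : (X.map (QuotientGroup.mk' (pPrimeCore p H))).Normal :=
    Subgroup.Normal.map hXn _ (QuotientGroup.mk'_surjective _)
  have h2 : IsPGroup p (X.map (QuotientGroup.mk' (pPrimeCore p H))) := hXp.map _
  exact Cfsg.Agent.Lib.Helper84.le_pCore h1 h2 ⟨x, hx, rfl⟩

variable {G : Type*} [Group G] [Finite G]

/-- Fusion control, the local step: conjugation by `n ∈ N_G(T)` on a fully normalized `T`. -/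
theorem fusion_partB (p : ℕ) [Fact p.Prime] (P : Sylow p G)
    (A : Subgroup G) (hAP : A ≤ (P : Subgroup G)) (hAc : IsMulCommutative A)
    (hAn : (P : Subgroup G) ≤ Subgroup.normalizer (A : Set G))
    (I : Subgroup G)
    (hI : ∀ T : Subgroup G, A ≤ T → T ≤ (P : Subgroup G) → Subgroup.normalizer (T : Set G) ≤ I)
    (T : Subgroup G) (hTP : T ≤ (P : Subgroup G))
    (hsolv : Group.IsSolvable (Subgroup.normalizer (T : Set G)))
    (hodd : Odd (Nat.card (Subgroup.normalizer (T : Set G))))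
    (hSyl : IsSylowIn p ((P : Subgroup G) ⊓ Subgroup.normalizer (T : Set G))
      (Subgroup.normalizer (T : Set G)))
    (IH : ∀ (D : Subgroup G) (g : G), D ≤ (P : Subgroup G) →
        D.map (MulAut.conj g).toMonoidHom ≤ (P : Subgroup G) →
        Nat.card T < Nat.card D → ∃ i ∈ I, ∀ x ∈ D, g * x * g⁻¹ = i * x * i⁻¹)
    (n : G) (hn : n ∈ Subgroup.normalizer (T : Set G)) :
    ∃ i ∈ I, ∀ x ∈ T, n * x * n⁻¹ = i * x * i⁻¹ := by
  set N := Subgroup.normalizer (T : Set G) with hN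
  obtain ⟨S', hS'⟩ := hSyl.exists_sylow
  obtain ⟨c, hc, m, hm, hnm⟩ := frattini_pPrimePCore p S' ⟨n, hn⟩
  have hTN : T ≤ N := Subgroup.le_normalizer
  have hmemS' : ∀ y : N, (y : G) ∈ (P : Subgroup G) → y ∈ (S' : Subgroup N) := by
    intro y hy
    have h1 : (y : G) ∈ (S' : Subgroup N).map N.subtype := by
      rw [hS']; exact Subgroup.mem_inf.mpr ⟨hy, y.2⟩
    obtain ⟨z, hz, hzy⟩ := h1
    have : z = y := Subtype.ext hzy
    rw [← this]; exact hz
  have hS'P : ∀ y ∈ (S' : Subgroup N), (y : G) ∈ (P : Subgroup G) := by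
    intro y hy
    have h1 : (y : G) ∈ (S' : Subgroup N).map N.subtype := ⟨y, hy, rfl⟩
    rw [hS'] at h1; exact h1.1
  -- `T` as a normal `p`-subgroup of `N`
  have hT'n : (T.subgroupOf N).Normal := Subgroup.normal_in_normalizer
  have hT'p : IsPGroup p (T.subgroupOf N) :=
    (P.isPGroup'.to_le hTP).of_equiv (Subgroup.subgroupOfEquivOfLe hTN).symm
  -- `c` centralizes `T`
  have hC₀n : (pPrimeCore p N).Normal := Cfsg.Agent.Lib.Helper22.pPrimeCore_normal' p N
  have hcop : (Nat.card (pPrimeCore p N)).Coprime (Nat.card (T.subgroupOf N)) := by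
    obtain ⟨k, hk⟩ := IsPGroup.iff_card.mp hT'p
    rw [hk]
    exact Nat.Coprime.pow_right k (Cfsg.Agent.Lib.Helper22.card_pPrimeCore_coprime p N)
  have hbot : pPrimeCore p N ⊓ T.subgroupOf N = ⊥ := (Subgroup.disjoint_of_coprime_natCard hcop).eq_bot
  have hcT : ∀ x ∈ T, (c : G) * x * (c : G)⁻¹ = x := by
    intro x hx
    have hx' : (⟨x, hTN hx⟩ : N) ∈ T.subgroupOf N := Subgroup.mem_subgroupOf.mpr hx
    have h1 : c * ⟨x, hTN hx⟩ * c⁻¹ * (⟨x, hTN hx⟩ : N)⁻¹ ∈ pPrimeCore p N ⊓ T.subgroupOf N := by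
      refine Subgroup.mem_inf.mpr ⟨?_, ?_⟩
      · have h2 := hC₀n.conj_mem c⁻¹ (inv_mem hc) ⟨x, hTN hx⟩
        have h3 : c * ⟨x, hTN hx⟩ * c⁻¹ * (⟨x, hTN hx⟩ : N)⁻¹ =
            c * ((⟨x, hTN hx⟩ : N) * c⁻¹ * (⟨x, hTN hx⟩ : N)⁻¹) := by group
        rw [h3]; exact mul_mem hc h2
      · exact mul_mem (hT'n.conj_mem _ hx' c) (inv_mem hx')
    rw [hbot, Subgroup.mem_bot] at h1
    have h2 : c * ⟨x, hTN hx⟩ * c⁻¹ = ⟨x, hTN hx⟩ := by
      rw [← mul_inv_eq_one]; exact h1
    have h3 := congrArg Subtype.val h2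
    simpa using h3
  -- conjugation by `n` on `T` is conjugation by `m`
  have hnm' : n = (c : G) * (m : G) := by
    have := congrArg Subtype.val hnm
    simpa using this
  have hmT : ∀ x ∈ T, (m : G) * x * (m : G)⁻¹ ∈ T := by
    intro x hx
    exact (Subgroup.mem_normalizer_iff.mp m.2 x).mp hx
  have hconj : ∀ x ∈ T, n * x * n⁻¹ = (m : G) * x * (m : G)⁻¹ := by
    intro x hx
    have h1 := hcT _ (hmT x hx)
    rw [hnm']
    calc (c : G) * (m : G) * x * ((c : G) * (m : G))⁻¹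
        = (c : G) * ((m : G) * x * (m : G)⁻¹) * (c : G)⁻¹ := by group
      _ = (m : G) * x * (m : G)⁻¹ := h1
  -- the bigger subgroup
  set T₁ := (((S' : Subgroup N) ⊓ pPrimePCore p N : Subgroup N)).map N.subtype with hT₁
  have hT₁P : T₁ ≤ (P : Subgroup G) := by
    rintro _ ⟨y, hy, rfl⟩
    exact hS'P y hy.1
  have hTT₁ : T ≤ T₁ := by
    intro x hx
    refine ⟨⟨x, hTN hx⟩, Subgroup.mem_inf.mpr ⟨hmemS' _ (hTP hx), ?_⟩, rfl⟩
    exact le_pPrimePCore_of_normal_pGroup p hT'n hT'p (Subgroup.mem_subgroupOf.mpr hx)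
  have hmT₁ : T₁.map (MulAut.conj (m : G)).toMonoidHom ≤ T₁ := by
    rintro _ ⟨_, ⟨y, hy, rfl⟩, rfl⟩
    have h1 := (Subgroup.mem_normalizer_iff.mp hm y).mp hy
    exact ⟨m * y * m⁻¹, h1, by simp [MulAut.conj_apply]⟩
  by_cases hlt : Nat.card T < Nat.card T₁
  · obtain ⟨i, hi, hix⟩ := IH T₁ (m : G) hT₁P (hmT₁.trans hT₁P) hlt
    exact ⟨i, hi, fun x hx => (hconj x hx).trans (hix x (hTT₁ hx))⟩
  · have hT₁eq : T₁ = T := (Subgroup.eq_of_le_of_card_ge hTT₁ (not_lt.mp hlt)).symm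
    -- Hall–Higman: `A ∩ N ≤ O_{p',p}(N)`
    have hANS : ∀ y : N, (y : G) ∈ A → y ∈ (S' : Subgroup N) ⊓ pPrimePCore p N := by
      have hodd' : Odd (Nat.card N) := hodd
      have hsolv' : Group.IsSolvable N := hsolv
      have hA' : (A.subgroupOf N) ≤ (S' : Subgroup N) := by
        intro y hy
        exact hmemS' y (hAP (Subgroup.mem_subgroupOf.mp hy))
      have hAc' : IsMulCommutative (A.subgroupOf N) := by
        rw [isMulCommutative_iff]
        rintro ⟨a, ha⟩ ⟨b, hb⟩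
        have ha' : (a : G) ∈ A := Subgroup.mem_subgroupOf.mp ha
        have hb' : (b : G) ∈ A := Subgroup.mem_subgroupOf.mp hb
        have h1 := (isMulCommutative_iff.mp hAc) ⟨(a : G), ha'⟩ ⟨(b : G), hb'⟩
        have h2 : (a : G) * (b : G) = (b : G) * (a : G) := congrArg Subtype.val h1
        apply Subtype.ext
        apply Subtype.ext
        exact h2
      have hAn' : (S' : Subgroup N) ≤ Subgroup.normalizer ((A.subgroupOf N : Subgroup N) : Set N) := by
        intro s hs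
        apply Cfsg.Agent.Lib.Helper75.BG.mem_normalizer_of_map_le
        rintro _ ⟨y, hy, rfl⟩
        rw [Subgroup.mem_subgroupOf]
        have h1 := (Subgroup.mem_normalizer_iff.mp (hAn (hS'P s hs)) (y : G)).mp
          (Subgroup.mem_subgroupOf.mp hy)
        simpa [MulAut.conj_apply] using h1
      have h1457 := Cfsg.Agent.S1457.result (G := N) hodd' p S' (A.subgroupOf N) hA' hAc' hAn'
      intro y hy
      have hy' : y ∈ A.subgroupOf N := Subgroup.mem_subgroupOf.mpr hy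
      exact Subgroup.mem_inf.mpr ⟨hA' hy', h1457 hy'⟩
    have hANT : ∀ a ∈ A, a ∈ N → a ∈ T := by
      intro a ha haN
      rw [← hT₁eq]
      exact ⟨⟨a, haN⟩, hANS ⟨a, haN⟩ ha, rfl⟩
    -- normalizer growth: `A ≤ T`
    have hAT : A ≤ T := by
      by_contra hcon
      have hTA : T ≠ T ⊔ A := by
        intro h
        apply hcon
        rw [h]; exact le_sup_right
      have hpTA : IsPGroup p (T ⊔ A : Subgroup G) := P.isPGroup'.to_le (sup_le hTP hAP)
      obtain ⟨x, hxTA, hxN, hxT⟩ := exists_mem_normalizer_not_mem hpTA le_sup_left hTA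
      have hx' : x ∈ ((T ⊔ A : Subgroup G) : Set G) := hxTA
      rw [Subgroup.coe_mul_of_left_le_normalizer_right T A (hTP.trans hAn)] at hx'
      obtain ⟨t, ht, a, ha, rfl⟩ := Set.mem_mul.mp hx'
      have haN : a ∈ N := by
        have : a = t⁻¹ * (t * a) := by group
        rw [this]
        exact mul_mem (inv_mem (hTN ht)) hxN
      exact hxT (mul_mem ht (hANT a ha haN))
    exact ⟨n, hI T hAT hTP hn, fun x _ => rfl⟩

/-- **Fusion control.** `P` a Sylow `p`-subgroup, `A` an abelian normal subgroup of `P`, the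
normalizers of the nontrivial subgroups of `P` solvable of odd order, and `I` a subgroup
containing `N_G(T)` for every `A ≤ T ≤ P`.  Then every conjugation between subgroups of `P` is
induced by an element of `I`. -/
theorem fusion_control (p : ℕ) [Fact p.Prime] (P : Sylow p G)
    (A : Subgroup G) (hAP : A ≤ (P : Subgroup G)) (hAc : IsMulCommutative A)
    (hAn : (P : Subgroup G) ≤ Subgroup.normalizer (A : Set G))
    (hloc : ∀ T : Subgroup G, T ≠ ⊥ → T ≤ (P : Subgroup G) →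
      Group.IsSolvable (Subgroup.normalizer (T : Set G)) ∧
        Odd (Nat.card (Subgroup.normalizer (T : Set G))))
    (I : Subgroup G)
    (hI : ∀ T : Subgroup G, A ≤ T → T ≤ (P : Subgroup G) → Subgroup.normalizer (T : Set G) ≤ I)
    (D : Subgroup G) (g : G) (hDP : D ≤ (P : Subgroup G))
    (hDg : D.map (MulAut.conj g).toMonoidHom ≤ (P : Subgroup G)) :
    ∃ i ∈ I, ∀ x ∈ D, g * x * g⁻¹ = i * x * i⁻¹ := by
  have key : ∀ k : ℕ, ∀ (D : Subgroup G) (g : G), D ≤ (P : Subgroup G) →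
      D.map (MulAut.conj g).toMonoidHom ≤ (P : Subgroup G) →
      Nat.card (P : Subgroup G) - Nat.card D = k →
      ∃ i ∈ I, ∀ x ∈ D, g * x * g⁻¹ = i * x * i⁻¹ := by
    intro k
    induction k using Nat.strong_induction_on with
    | _ k ih =>
      intro D g hDP hDg hk
      have IH : ∀ (D' : Subgroup G) (g' : G), D' ≤ (P : Subgroup G) →
          D'.map (MulAut.conj g').toMonoidHom ≤ (P : Subgroup G) → Nat.card D < Nat.card D' →
          ∃ i ∈ I, ∀ x ∈ D', g' * x * g'⁻¹ = i * x * i⁻¹ := by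
        intro D' g' h1 h2 h3
        have hle : Nat.card D' ≤ Nat.card (P : Subgroup G) := Subgroup.card_le_of_le h1
        exact ih (Nat.card (P : Subgroup G) - Nat.card D') (by omega) D' g' h1 h2 rfl
      by_cases hDbot : D = ⊥
      · refine ⟨1, one_mem _, fun x hx => ?_⟩
        rw [hDbot, Subgroup.mem_bot] at hx
        rw [hx]; simp
      by_cases hDeq : D = (P : Subgroup G)
      · have hg : g ∈ Subgroup.normalizer (((P : Subgroup G)) : Set G) := by
          apply Cfsg.Agent.Lib.Helper75.BG.mem_normalizer_of_map_le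
          rw [← hDeq]; exact hDg.trans (le_of_eq hDeq.symm)
        exact ⟨g, hI (P : Subgroup G) hAP le_rfl hg, fun x _ => rfl⟩
      have hDlt : D < (P : Subgroup G) := lt_of_le_of_ne hDP hDeq
      -- Step 1: a fully normalized conjugate `Ds` of `D`
      have hNPDp : IsPGroup p ((P : Subgroup G) ⊓ Subgroup.normalizer (D : Set G) : Subgroup G) :=
        P.isPGroup'.to_le inf_le_left
      obtain ⟨R, hR, hNPR⟩ := exists_isSylowIn_ge hNPDp
        (inf_le_right : (P : Subgroup G) ⊓ Subgroup.normalizer (D : Set G) ≤ _)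
      have hPtop : IsSylowIn p (P : Subgroup G) ⊤ :=
        ⟨le_top, by rw [Subgroup.card_top]; exact P.card_eq_multiplicity⟩
      obtain ⟨R₂, hR₂, hRR₂⟩ := exists_isSylowIn_ge (sylIn_isPGroup hR) (le_top : R ≤ ⊤)
      obtain ⟨u, -, rfl⟩ := hPtop.exists_conj hR₂
      have hRv : R.map (MulAut.conj u⁻¹).toMonoidHom ≤ (P : Subgroup G) := by
        rintro _ ⟨r, hr, rfl⟩
        have h1 := hRR₂ hr
        rw [mem_map_conj_iff] at h1
        simpa [MulAut.conj_apply] using h1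
      obtain ⟨x₀, hx₀P, hx₀N, hx₀D⟩ := exists_mem_normalizer_not_mem P.isPGroup' hDP hDeq
      have hDNP : D ≤ (P : Subgroup G) ⊓ Subgroup.normalizer (D : Set G) :=
        le_inf hDP Subgroup.le_normalizer
      have hcard1 : Nat.card D <
          Nat.card ((P : Subgroup G) ⊓ Subgroup.normalizer (D : Set G) : Subgroup G) := by
        apply card_lt_of_lt
        refine lt_of_le_of_ne hDNP ?_
        intro h
        apply hx₀D
        rw [h]; exact Subgroup.mem_inf.mpr ⟨hx₀P, hx₀N⟩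
      obtain ⟨i₁, hi₁, hi₁x⟩ := IH _ u⁻¹ inf_le_left ((Subgroup.map_mono hNPR).trans hRv) hcard1
      set Ds := D.map (MulAut.conj u⁻¹).toMonoidHom with hDs
      have hDsP : Ds ≤ (P : Subgroup G) := (Subgroup.map_mono (hDNP.trans hNPR)).trans hRv
      have hDscard : Nat.card Ds = Nat.card D := card_map_conj D u⁻¹
      have hNDs : Subgroup.normalizer (Ds : Set G) =
          (Subgroup.normalizer (D : Set G)).map (MulAut.conj u⁻¹).toMonoidHom :=
        normalizer_map_conj D u⁻¹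
      have hSylDs : IsSylowIn p ((P : Subgroup G) ⊓ Subgroup.normalizer (Ds : Set G))
          (Subgroup.normalizer (Ds : Set G)) := by
        have h1 : IsSylowIn p (R.map (MulAut.conj u⁻¹).toMonoidHom)
            (Subgroup.normalizer (Ds : Set G)) := by
          rw [hNDs]; exact sylIn_map_conj hR u⁻¹
        have h2 : R.map (MulAut.conj u⁻¹).toMonoidHom ≤
            (P : Subgroup G) ⊓ Subgroup.normalizer (Ds : Set G) := le_inf hRv h1.1
        have h3 := sylIn_eq_of_le h1 (P.isPGroup'.to_le inf_le_left) inf_le_right h2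
        rw [h3]; exact h1
      -- Step 2: move the normalizer of `D' = gDg⁻¹` into that of `Ds`
      set D' := D.map (MulAut.conj g).toMonoidHom with hD'
      have hD'w : D'.map (MulAut.conj (u⁻¹ * g⁻¹)).toMonoidHom = Ds := by
        rw [hD', hDs, Subgroup.map_map]
        congr 1
        ext x
        simp [mul_assoc]
      have hQ : ((P : Subgroup G) ⊓ Subgroup.normalizer (D' : Set G)).map
          (MulAut.conj (u⁻¹ * g⁻¹)).toMonoidHom ≤ Subgroup.normalizer (Ds : Set G) := by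
        rw [← hD'w, normalizer_map_conj D' (u⁻¹ * g⁻¹)]
        exact Subgroup.map_mono inf_le_right
      have hQp : IsPGroup p (((P : Subgroup G) ⊓ Subgroup.normalizer (D' : Set G)).map
          (MulAut.conj (u⁻¹ * g⁻¹)).toMonoidHom) :=
        isPGroup_map_conj (P.isPGroup'.to_le inf_le_left) _
      obtain ⟨R₃, hR₃, hQR₃⟩ := exists_isSylowIn_ge hQp hQ
      obtain ⟨n', hn'N, rfl⟩ := hSylDs.exists_conj hR₃
      have hu₂ : ((P : Subgroup G) ⊓ Subgroup.normalizer (D' : Set G)).map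
          (MulAut.conj (n'⁻¹ * (u⁻¹ * g⁻¹))).toMonoidHom ≤ (P : Subgroup G) := by
        rintro _ ⟨y, hy, rfl⟩
        have h1 : (MulAut.conj (u⁻¹ * g⁻¹)).toMonoidHom y ∈
            ((P : Subgroup G) ⊓ Subgroup.normalizer (D' : Set G)).map
              (MulAut.conj (u⁻¹ * g⁻¹)).toMonoidHom := ⟨y, hy, rfl⟩
        have h2 := hQR₃ h1
        rw [mem_map_conj_iff] at h2
        have h3 := h2.1
        have h4 : (MulAut.conj (n'⁻¹ * (u⁻¹ * g⁻¹))).toMonoidHom y =
            n'⁻¹ * (MulAut.conj (u⁻¹ * g⁻¹)).toMonoidHom y * n' := by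
          simp [mul_assoc]
        rw [h4]; exact h3
      have hD'card : Nat.card D' = Nat.card D := card_map_conj D g
      have hD'ne : D' ≠ (P : Subgroup G) := by
        intro h
        have h1 := (card_lt_of_lt hDlt).ne
        rw [← h, hD'card] at h1
        exact h1 rfl
      obtain ⟨x₁, hx₁P, hx₁N, hx₁D⟩ := exists_mem_normalizer_not_mem P.isPGroup' hDg hD'ne
      have hD'NP : D' ≤ (P : Subgroup G) ⊓ Subgroup.normalizer (D' : Set G) :=
        le_inf hDg Subgroup.le_normalizer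
      have hcard2 : Nat.card D <
          Nat.card ((P : Subgroup G) ⊓ Subgroup.normalizer (D' : Set G) : Subgroup G) := by
        rw [← hD'card]
        apply card_lt_of_lt
        refine lt_of_le_of_ne hD'NP ?_
        intro h
        apply hx₁D
        rw [h]; exact Subgroup.mem_inf.mpr ⟨hx₁P, hx₁N⟩
      obtain ⟨i₂, hi₂, hi₂x⟩ := IH _ (n'⁻¹ * (u⁻¹ * g⁻¹)) inf_le_left hu₂ hcard2
      -- Step 3: the local step for `Ds`
      have hDsbot : Ds ≠ ⊥ := by
        intro h
        apply hDbot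
        have h1 : Nat.card D = 1 := by rw [← hDscard, h]; exact Subgroup.card_bot
        exact Subgroup.eq_bot_of_card_eq D h1
      obtain ⟨hsolv, hodd⟩ := hloc Ds hDsbot hDsP
      have IH' : ∀ (D'' : Subgroup G) (g'' : G), D'' ≤ (P : Subgroup G) →
          D''.map (MulAut.conj g'').toMonoidHom ≤ (P : Subgroup G) → Nat.card Ds < Nat.card D'' →
          ∃ i ∈ I, ∀ x ∈ D'', g'' * x * g''⁻¹ = i * x * i⁻¹ := by
        intro D'' g'' h1 h2 h3
        exact IH D'' g'' h1 h2 (by rw [← hDscard]; exact h3)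
      obtain ⟨i₃, hi₃, hi₃x⟩ := fusion_partB p P A hAP hAc hAn I hI Ds hDsP hsolv hodd hSylDs
        IH' n'⁻¹ (inv_mem hn'N)
      refine ⟨i₂⁻¹ * i₃ * i₁, mul_mem (mul_mem (inv_mem hi₂) hi₃) hi₁, ?_⟩
      intro x hx
      have hz : u⁻¹ * x * u⁻¹⁻¹ ∈ Ds := ⟨x, hx, by simp⟩
      have e1 : u⁻¹ * x * u⁻¹⁻¹ = i₁ * x * i₁⁻¹ := hi₁x x (hDNP hx)
      have e3 : n'⁻¹ * (u⁻¹ * x * u⁻¹⁻¹) * n'⁻¹⁻¹ = i₃ * (u⁻¹ * x * u⁻¹⁻¹) * i₃⁻¹ := hi₃x _ hz
      have hy : g * x * g⁻¹ ∈ (P : Subgroup G) ⊓ Subgroup.normalizer (D' : Set G) :=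
        hD'NP ⟨x, hx, by simp [MulAut.conj_apply]⟩
      have e2 : n'⁻¹ * (u⁻¹ * g⁻¹) * (g * x * g⁻¹) * (n'⁻¹ * (u⁻¹ * g⁻¹))⁻¹ =
          i₂ * (g * x * g⁻¹) * i₂⁻¹ := hi₂x _ hy
      have e4 : n'⁻¹ * (u⁻¹ * g⁻¹) * (g * x * g⁻¹) * (n'⁻¹ * (u⁻¹ * g⁻¹))⁻¹ =
          n'⁻¹ * (u⁻¹ * x * u⁻¹⁻¹) * n'⁻¹⁻¹ := by group
      have e5 : i₂ * (g * x * g⁻¹) * i₂⁻¹ = i₃ * (i₁ * x * i₁⁻¹) * i₃⁻¹ := by
        rw [← e2, e4, e3, e1]
      calc g * x * g⁻¹ = i₂⁻¹ * (i₂ * (g * x * g⁻¹) * i₂⁻¹) * i₂ := by group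
        _ = i₂⁻¹ * (i₃ * (i₁ * x * i₁⁻¹) * i₃⁻¹) * i₂ := by rw [e5]
        _ = (i₂⁻¹ * i₃ * i₁) * x * (i₂⁻¹ * i₃ * i₁)⁻¹ := by group
  exact key _ D g hDP hDg rfl

/-- Consequence of fusion control and the focal subgroup theorem: `P ∩ G' ≤ I'`. -/
theorem sylow_inf_commutator_le_of_fusion_control (p : ℕ) [Fact p.Prime] (P : Sylow p G)
    (A : Subgroup G) (hAP : A ≤ (P : Subgroup G)) (hAc : IsMulCommutative A)
    (hAn : (P : Subgroup G) ≤ Subgroup.normalizer (A : Set G))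
    (hloc : ∀ T : Subgroup G, T ≠ ⊥ → T ≤ (P : Subgroup G) →
      Group.IsSolvable (Subgroup.normalizer (T : Set G)) ∧
        Odd (Nat.card (Subgroup.normalizer (T : Set G))))
    (I : Subgroup G)
    (hI : ∀ T : Subgroup G, A ≤ T → T ≤ (P : Subgroup G) → Subgroup.normalizer (T : Set G) ≤ I) :
    (P : Subgroup G) ⊓ ⁅(⊤ : Subgroup G), ⊤⁆ ≤ ⁅I, I⁆ := by
  have hPI : (P : Subgroup G) ≤ I := Subgroup.le_normalizer.trans (hI (P : Subgroup G) hAP le_rfl)
  apply Cfsg.Agent.Lib.Helper33.sylow_inf_commutator_le P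
  intro x hx u hu
  have hD : (Subgroup.zpowers x).map (MulAut.conj u).toMonoidHom ≤ (P : Subgroup G) := by
    rw [MonoidHom.map_zpowers, Subgroup.zpowers_le]
    simpa [MulAut.conj_apply] using hu
  obtain ⟨i, hi, hix⟩ := fusion_control p P A hAP hAc hAn hloc I hI (Subgroup.zpowers x) u
    ((Subgroup.zpowers_le).mpr hx) hD
  rw [hix x (Subgroup.mem_zpowers x)]
  have e : x⁻¹ * (i * x * i⁻¹) = ⁅x⁻¹, i⁆ := by
    rw [commutatorElement_def]; group
  rw [e]
  exact Subgroup.commutator_mem_commutator (inv_mem (hPI hx)) hi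

omit [Finite G] in
/-- A minimal simple group of odd order is perfect. -/
theorem commutator_eq_top_of_minSimple (hG : IsMinSimpleOddOrder G) :
    ⁅(⊤ : Subgroup G), (⊤ : Subgroup G)⁆ = (⊤ : Subgroup G) := by
  have hs : IsSimpleGroup G := hG.2.1
  have hn : (⁅(⊤ : Subgroup G), (⊤ : Subgroup G)⁆).Normal := by
    rw [← commutator_def]; infer_instance
  rcases hn.eq_bot_or_eq_top with h | h
  · exfalso
    apply hG.2.2.1
    rw [isMulCommutative_iff]
    intro a b
    have h1 : ⁅a, b⁆ ∈ ⁅(⊤ : Subgroup G), (⊤ : Subgroup G)⁆ :=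
      Subgroup.commutator_mem_commutator (Subgroup.mem_top a) (Subgroup.mem_top b)
    rw [h, Subgroup.mem_bot] at h1
    exact commutatorElement_eq_one_iff_mul_comm.mp h1
  · exact h

/-- A Sylow subgroup of a minimal simple group of odd order is a proper subgroup. -/
theorem sylow_ne_top_of_minSimple (hG : IsMinSimpleOddOrder G) (p : ℕ) [Fact p.Prime]
    (P : Sylow p G) : (P : Subgroup G) ≠ ⊤ := by
  intro h
  have hs : IsSimpleGroup G := hG.2.1
  have hp : IsPGroup p G := by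
    have h1 : IsPGroup p (⊤ : Subgroup G) := by rw [← h]; exact P.isPGroup'
    exact h1.of_equiv Subgroup.topEquiv
  have hnil : Group.IsNilpotent G := hp.isNilpotent
  have hsol : Group.IsSolvable G := inferInstance
  apply hG.2.2.1
  rw [isMulCommutative_iff]
  exact IsSimpleGroup.comm_iff_isSolvable.mpr hsol

/-- **Fusion control in a minimal simple group of odd order** (used for B–G 9.5): if `A` is an
abelian normal subgroup of the Sylow `p`-subgroup `P` and `I` contains `N_G(T)` for every `T`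
with `A ≤ T ≤ P`, then `P ≤ I'`. -/
theorem sylow_le_commutator_of_minSimple (hG : IsMinSimpleOddOrder G) (p : ℕ) [Fact p.Prime]
    (P : Sylow p G) (A : Subgroup G) (hAP : A ≤ (P : Subgroup G)) (hAc : IsMulCommutative A)
    (hAn : (P : Subgroup G) ≤ Subgroup.normalizer (A : Set G)) (I : Subgroup G)
    (hI : ∀ T : Subgroup G, A ≤ T → T ≤ (P : Subgroup G) → Subgroup.normalizer (T : Set G) ≤ I) :
    (P : Subgroup G) ≤ ⁅I, I⁆ := by
  have hPtop := sylow_ne_top_of_minSimple hG p P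
  have hloc : ∀ T : Subgroup G, T ≠ ⊥ → T ≤ (P : Subgroup G) →
      Group.IsSolvable (Subgroup.normalizer (T : Set G)) ∧
        Odd (Nat.card (Subgroup.normalizer (T : Set G))) := by
    intro T hT hTP
    have hT' : T ≠ ⊤ := fun h => hPtop (top_le_iff.mp (h ▸ hTP))
    exact ⟨isSolvable_of_ne_top hG (normalizer_ne_top hG hT hT'), odd_card_subgroup hG _⟩
  have h1 := sylow_inf_commutator_le_of_fusion_control p P A hAP hAc hAn hloc I hI
  rw [commutator_eq_top_of_minSimple hG, inf_top_eq] at h1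
  exact h1

/-- Elementwise form of fusion control in a minimal simple group of odd order. -/
theorem fusion_control_of_minSimple (hG : IsMinSimpleOddOrder G) (p : ℕ) [Fact p.Prime]
    (P : Sylow p G) (A : Subgroup G) (hAP : A ≤ (P : Subgroup G)) (hAc : IsMulCommutative A)
    (hAn : (P : Subgroup G) ≤ Subgroup.normalizer (A : Set G)) (I : Subgroup G)
    (hI : ∀ T : Subgroup G, A ≤ T → T ≤ (P : Subgroup G) → Subgroup.normalizer (T : Set G) ≤ I)
    (D : Subgroup G) (g : G) (hDP : D ≤ (P : Subgroup G))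
    (hDg : D.map (MulAut.conj g).toMonoidHom ≤ (P : Subgroup G)) :
    ∃ i ∈ I, ∀ x ∈ D, g * x * g⁻¹ = i * x * i⁻¹ := by
  have hPtop := sylow_ne_top_of_minSimple hG p P
  have hloc : ∀ T : Subgroup G, T ≠ ⊥ → T ≤ (P : Subgroup G) →
      Group.IsSolvable (Subgroup.normalizer (T : Set G)) ∧
        Odd (Nat.card (Subgroup.normalizer (T : Set G))) := by
    intro T hT hTP
    have hT' : T ≠ ⊤ := fun h => hPtop (top_le_iff.mp (h ▸ hTP))
    exact ⟨isSolvable_of_ne_top hG (normalizer_ne_top hG hT hT'), odd_card_subgroup hG _⟩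
  exact fusion_control p P A hAP hAc hAn hloc I hI D g hDP hDg

end Cfsg.Agent.Lib.Helper67.BG
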