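import Mathlib
import Cfsg.Prelude.Def_OddOrderLocal
import Cfsg.Statements.S1352
import Cfsg.Statements.S1364
import Cfsg.Statements.S1366
import Cfsg.Statements.S1369
import Cfsg.Statements.S1372

/-!
Bender–Glauberman: if `K ≠ 1` and `U = 1` in a standard factorisation `M = K U M_σ`, then
`K* = M_σ ∩ C_G(K)` has prime order (statement S1373).  Derived from S1352 (existence of a standard
factorisation), S1364 (`K*` cyclic and nontrivial), S1366 (the partner `M*`), S1369 (`U = 1` forces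
`U* ≠ 1`) and S1372 (`K ≠ 1`, `U ≠ 1` give `K` of prime order), which are taken as hypotheses.
-/

set_option autoImplicit false

namespace Cfsg.Agent.Lib.Helper67.BG

open Cfsg

theorem s1373_core {G : Type*} [Group G] [Finite G] (hG : Cfsg.IsMinSimpleOddOrder G)
    (h1352 : type_of% (@Cfsg.CfsgFrozen.S1352 G _ _ hG))
    (h1364 : type_of% (@Cfsg.CfsgFrozen.S1364 G _ _ hG))
    (h1366 : type_of% (@Cfsg.CfsgFrozen.S1366 G _ _ hG))
    (h1369 : type_of% (@Cfsg.CfsgFrozen.S1369 G _ _ hG))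
    (h1372 : type_of% (@Cfsg.CfsgFrozen.S1372 G _ _ hG))
    (M : Subgroup G) (hM : IsCoatom M) (K U : Subgroup G) (hKU : Cfsg.IsSigmaDecomposition M K U)
    (hK1 : K ≠ ⊥) (hU : U = ⊥) :
    (Nat.card ↥(Cfsg.sigmaCore M ⊓ Subgroup.centralizer (K : Set G))).Prime := by
  obtain ⟨hcyc, hne, -, -⟩ := h1364 M hM K U hKU hK1
  obtain ⟨Mstar, ⟨hMs, hKst, hKstH⟩, -⟩ := h1366 M hM K U hKU hK1
  obtain ⟨h1, -⟩ := h1369 M hM K U hKU hK1 Mstar hMs hKst hKstH
  have h2 := h1.resolve_left (fun h => h hU)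
  obtain ⟨⟨Ustar, hUstar⟩, -⟩ := h1352 Mstar hMs _ hcyc hKstH
  exact (h1372 Mstar hMs _ Ustar hUstar hne (h2 Ustar hUstar)).1

end Cfsg.Agent.Lib.Helper67.BG
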