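import Mathlib
import Cfsg.Prelude.Def_OddOrderLocal
import Cfsg.Statements.S1350
import Cfsg.Statements.S1405
import Cfsg.Statements.S1417
import Cfsg.Statements.S1418
import Cfsg.Statements.S1420
import Cfsg.Statements.S1422
import Cfsg.Statements.S1430
import Cfsg.Statements.S1431
import Cfsg.Agent.Lib.Helper67.BG.HallUtil
import Cfsg.Agent.Lib.Helper67.BG.S1358Core
import Cfsg.Agent.Lib.Helper65.BG.S1406Core

/-!
Bender–Glauberman: for `x ≠ 1` in `M_σ` and a `σ(M)'`-element `x' ≠ 1` of `C_M(x)`, either all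
prime divisors of the order of `x'` lie in `κ(M)` and `C_G(x) ≤ M`, or they all lie in `τ₂(M)`,
they all lie in `σ(L)` for a single maximal subgroup `L`, and `M` is the unique maximal subgroup
containing `C_G(x')` (statement S1432).  Derived from S1350, S1405, S1417, S1418, S1420, S1422,
S1430 and S1431, which are taken as hypotheses.
-/

set_option autoImplicit false

namespace Cfsg.Agent.Lib.Helper67.BG

open Cfsg Cfsg.Agent.Lib.Helper46

/-- A prime outside `σ(M)` dividing the order of an element of `M` that centralizes a non-identity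
element of `M_σ` lies in `κ(M)` or in `τ₂(M)`. -/
theorem kappa_or_tau2 {G : Type*} [Group G] [Finite G] (hG : Cfsg.IsMinSimpleOddOrder G)
    (h1405 : type_of% (@Cfsg.CfsgFrozen.S1405 G _ _ hG))
    (M : Subgroup G) (hM : IsCoatom M) (r : ℕ) (hr : r.Prime) (hrσ : r ∉ sigma M)
    (z : G) (hzM : z ∈ M) (hz : orderOf z = r) (y : G) (hy : y ∈ sigmaCore M) (hy1 : y ≠ 1)
    (hzy : z * y = y * z) : r ∈ kappa M ∨ r ∈ tau2 M := by
  have : Fact r.Prime := ⟨hr⟩
  obtain ⟨hα, -, hασ, -, -⟩ := h1405 M hM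
  have hr2 := pRankLE_two_of_not_mem_sigma M hα hασ hr hrσ
  by_cases hr1 : PRankLE r 1 M
  · exact Or.inl (mem_kappa_of_rank_one hG.1 M r hrσ hr1 z hzM hz y hy hy1 hzy)
  · exact Or.inr ⟨hr, hrσ, hr2, hr1⟩

/-- An element of prime order `p` in the join of two elementwise commuting subgroups forces `p`
to divide one of the two orders. -/
theorem prime_dvd_of_mem_sup_commute {G : Type*} [Group G] [Finite G] (K Ks : Subgroup G)
    (hc : ∀ a ∈ K, ∀ b ∈ Ks, a * b = b * a) {z : G} (hz : z ∈ K ⊔ Ks) {p : ℕ} (hp : p.Prime)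
    (hzp : orderOf z = p) : p ∣ Nat.card K ∨ p ∣ Nat.card Ks := by
  obtain ⟨a, ha, b, hb, rfl⟩ := Cfsg.Agent.Lib.Helper23.mem_sup_of_commute K Ks hc hz
  have hcomm : Commute a b := hc a ha b hb
  have h1 : (a * b) ^ (Nat.card K * Nat.card Ks) = 1 := by
    rw [hcomm.mul_pow]
    have ha' : a ^ (Nat.card K * Nat.card Ks) = 1 :=
      orderOf_dvd_iff_pow_eq_one.mp (dvd_mul_of_dvd_left (Subgroup.orderOf_dvd_natCard K ha) _)
    have hb' : b ^ (Nat.card K * Nat.card Ks) = 1 :=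
      orderOf_dvd_iff_pow_eq_one.mp (dvd_mul_of_dvd_right (Subgroup.orderOf_dvd_natCard Ks hb) _)
    rw [ha', hb', one_mul]
  have h2 : p ∣ Nat.card K * Nat.card Ks := by
    rw [← hzp]
    exact orderOf_dvd_of_pow_eq_one h1
  exact (Nat.Prime.dvd_mul hp).mp h2

theorem normalizer_le_normalizer_of_omega {G : Type*} [Group G] [Finite G] {P A : Subgroup G}
    {p : ℕ} (hAP : A ≤ P) (hiff : ∀ x ∈ P, x ^ p = 1 ↔ x ∈ A) :
    Subgroup.normalizer (P : Set G) ≤ Subgroup.normalizer (A : Set G) := by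
  intro g hg
  apply Cfsg.Agent.Lib.Helper75.BG.mem_normalizer_of_map_le
  rintro _ ⟨t, ht, rfl⟩
  have h1 : g * t * g⁻¹ ∈ P := (Subgroup.mem_normalizer_iff.mp hg t).mp (hAP ht)
  apply (hiff _ h1).mp
  rw [conj_pow, (hiff t (hAP ht)).mpr ht, mul_one, mul_inv_cancel]

theorem ea_sq_ne_bot {G : Type*} [Group G] {p : ℕ} (hp : p.Prime) {A : Subgroup G}
    (hAc : Nat.card A = p ^ 2) : A ≠ ⊥ := by
  intro h
  rw [h, Subgroup.card_bot] at hAc
  have h1 : 1 < p ^ 2 := Nat.one_lt_pow (by norm_num) hp.one_lt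
  omega

/-- If `p ∈ τ₂(M)`, `A ≤ M` is elementary abelian of order `p ^ 2` with `C_G(A) ≤ M`, and `L` is a
maximal subgroup containing `N_G(A)`, then `p ∈ σ(L)`. -/
theorem mem_sigma_of_normalizer_ea {G : Type*} [Group G] [Finite G]
    (hG : Cfsg.IsMinSimpleOddOrder G)
    (h1417 : type_of% (@Cfsg.CfsgFrozen.S1417 G _ _ hG))
    (h1422 : type_of% (@Cfsg.CfsgFrozen.S1422 G _ _ hG))
    (M : Subgroup G) (hM : IsCoatom M) (p : ℕ) [Fact p.Prime] (hp : p ∈ tau2 M)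
    (A : Subgroup G) (hAM : A ≤ M) (hAe : IsElementaryAbelian p A) (hAc : Nat.card A = p ^ 2)
    (hCA : Subgroup.centralizer (A : Set G) ≤ M) (L : Subgroup G) (hL : IsCoatom L)
    (hNL : Subgroup.normalizer (A : Set G) ≤ L) : p ∈ sigma L := by
  have hpp : p.Prime := Fact.out
  have hAL : A ≤ L := Subgroup.le_normalizer.trans hNL
  have hAp : IsPGroup p A := Cfsg.Agent.Lib.Helper20.BG.isPGroup_of_ea hAe
  have hA1 : A ≠ ⊥ := ea_sq_ne_bot hpp hAc
  obtain ⟨PL, hPL, hAPL⟩ := Cfsg.Agent.Lib.Helper35.BG.exists_isSylowIn_ge hAp hAL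
  have hpL : p ∣ Nat.card L := by
    have h1 : p ∣ Nat.card A := by rw [hAc]; exact dvd_pow_self p (by norm_num)
    exact h1.trans (Subgroup.card_dvd_of_le hAL)
  have key : Subgroup.normalizer (PL : Set G) ≤ L := by
    by_cases hab : IsMulCommutative PL
    · have hPLC : PL ≤ Subgroup.centralizer (A : Set G) := by
        intro x hx
        rw [Subgroup.mem_centralizer_iff]
        intro a ha
        have := hab.is_comm.comm (⟨a, hAPL ha⟩ : PL) ⟨x, hx⟩
        exact congrArg Subtype.val this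
      have hPLM : PL ≤ M := hPLC.trans hCA
      obtain ⟨PM, hPM, hPLPM⟩ := Cfsg.Agent.Lib.Helper35.BG.exists_isSylowIn_ge (Cfsg.Agent.Lib.Helper35.BG.sylIn_isPGroup hPL) hPLM
      obtain ⟨S, hS⟩ := IsSylowIn.exists_sylow hPM
      obtain ⟨-, hb, -⟩ := h1417 M hM p hp A ⟨hAM, hAe, hAc⟩
      obtain ⟨-, hb2⟩ := hb S
      rw [hS] at hb2
      obtain ⟨hiff, -⟩ := hb2 (hAPL.trans hPLPM)
      have hN : Subgroup.normalizer (PM : Set G) ≤ L :=
        (normalizer_le_normalizer_of_omega (hAPL.trans hPLPM) hiff).trans hNL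
      have hPML : PM ≤ L := Subgroup.le_normalizer.trans hN
      have heq : PM = PL :=
        Cfsg.Agent.Lib.Helper35.BG.sylIn_eq_of_le hPL (Cfsg.Agent.Lib.Helper35.BG.sylIn_isPGroup hPM) hPML hPLPM
      rw [← heq]; exact hN
    · obtain ⟨L₀, -, huniq⟩ := h1422 p PL (Cfsg.Agent.Lib.Helper35.BG.sylIn_isPGroup hPL) hab
      have hPL1 : PL ≠ ⊥ := by
        intro h
        rw [h] at hAPL
        exact hA1 (le_bot_iff.mp hAPL)
      have hPLtop : PL ≠ ⊤ := by
        intro h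
        have h1 := hPL.1
        rw [h] at h1
        exact hL.1 (top_le_iff.mp h1)
      have hne := Cfsg.Agent.Lib.Helper35.BG.normalizer_ne_top hG hPL1 hPLtop
      obtain ⟨L', hL', hNL'⟩ := Cfsg.Agent.Lib.Helper35.BG.exists_coatom_ge hne
      have h1 : L' = L₀ := huniq L' ⟨hL', Subgroup.le_normalizer.trans hNL'⟩
      have h2 : L = L₀ := huniq L ⟨hL, hPL.1⟩
      rw [h2, ← h1]; exact hNL'
  obtain ⟨S, hS⟩ := IsSylowIn.exists_sylow hPL
  exact ⟨hpp, hpL, S, by rw [hS]; exact key⟩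

/-- If `p ∈ σ(L)`, `A ≠ 1` is an elementary abelian `p`-subgroup of `L` and `B ≤ L` is elementary
abelian of order `q ^ 2` centralizing `A`, then `q ∈ σ(L)`. -/
theorem mem_sigma_of_tau2_commuting {G : Type*} [Group G] [Finite G]
    (hG : Cfsg.IsMinSimpleOddOrder G)
    (h1350 : type_of% (@Cfsg.CfsgFrozen.S1350 G _ _ hG))
    (h1405 : type_of% (@Cfsg.CfsgFrozen.S1405 G _ _ hG))
    (h1417 : type_of% (@Cfsg.CfsgFrozen.S1417 G _ _ hG))
    (L : Subgroup G) (hL : IsCoatom L)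
    (p : ℕ) [Fact p.Prime] (hpL : p ∈ sigma L) (A : Subgroup G) (hAL : A ≤ L)
    (hAe : IsElementaryAbelian p A) (hA1 : A ≠ ⊥)
    (q : ℕ) [Fact q.Prime] (B : Subgroup G) (hBL : B ≤ L) (hBe : IsElementaryAbelian q B)
    (hBc : Nat.card B = q ^ 2)
    (hcomm : ∀ a ∈ A, ∀ b ∈ B, a * b = b * a) : q ∈ sigma L := by
  by_contra hqσ
  have hqp : q.Prime := Fact.out
  obtain ⟨hα, -, hασ, -, -⟩ := h1405 L hL
  have hr2 : PRankLE q 2 L := pRankLE_two_of_not_mem_sigma L hα hασ hqp hqσ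
  have hr1 : ¬ PRankLE q 1 L := by
    intro h1
    have h2 := (Cfsg.Agent.Lib.Helper24.pRankLE_subgroup_iff q 1 L).mp h1 B hBL
      (Cfsg.Agent.Lib.Helper20.BG.ea_comm hBe) hBe.2
    rw [hBc] at h2
    have h3 : 2 ≤ 1 := (Nat.pow_le_pow_iff_right hqp.one_lt).mp h2
    omega
  have hτ : q ∈ tau2 L := ⟨hqp, hqσ, hr2, hr1⟩
  obtain ⟨-, -, -, hd, -, -⟩ := h1417 L hL q hτ B ⟨hBL, hBe, hBc⟩
  obtain ⟨hHall, -, -⟩ := h1350 L hL
  apply hA1
  rw [eq_bot_iff, ← hd]
  intro a ha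
  refine Subgroup.mem_inf.mpr ⟨?_, ?_⟩
  · exact Cfsg.Agent.Lib.Helper65.BG.mem_of_pow_eq_one_of_not_dvd_relIndex L (sigmaCore L)
      (sigmaCore_normalizer L) (hHall.2.2 p Fact.out hpL) (hAL ha) (hAe.2 a ha)
  · rw [Subgroup.mem_centralizer_iff]
    intro b hb
    exact (hcomm a ha b hb).symm

/-- For `p ∈ τ₂(M)` there is a maximal subgroup `L` with `τ₂(M) ⊆ σ(L)`. -/
theorem exists_sigma_overgroup {G : Type*} [Group G] [Finite G]
    (hG : Cfsg.IsMinSimpleOddOrder G)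
    (h1350 : type_of% (@Cfsg.CfsgFrozen.S1350 G _ _ hG))
    (h1405 : type_of% (@Cfsg.CfsgFrozen.S1405 G _ _ hG))
    (h1417 : type_of% (@Cfsg.CfsgFrozen.S1417 G _ _ hG))
    (h1418 : type_of% (@Cfsg.CfsgFrozen.S1418 G _ _ hG))
    (h1422 : type_of% (@Cfsg.CfsgFrozen.S1422 G _ _ hG))
    (M : Subgroup G) (hM : IsCoatom M) (p : ℕ) (hp : p ∈ tau2 M) :
    ∃ L : Subgroup G, IsCoatom L ∧ ∀ q : ℕ, q ∈ tau2 M → q ∈ sigma L := by
  have hpp : p.Prime := hp.1
  have : Fact p.Prime := ⟨hpp⟩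
  obtain ⟨hHall, -, -⟩ := h1350 M hM
  obtain ⟨E, hE⟩ := exists_compl_sigmaCore M hHall
  obtain ⟨A, hAE, hAe, hAc⟩ := exists_ea_sq_le_compl hE hp
  obtain ⟨⟨hEA, -⟩, ⟨hCA, -, -⟩, -⟩ := h1418 M hM E hE p hp A ⟨hAE, hAe, hAc⟩
  have hAM : A ≤ M := hAE.trans hE.1
  have hA1 : A ≠ ⊥ := ea_sq_ne_bot hpp hAc
  have hAtop : A ≠ ⊤ := by
    intro h
    rw [h] at hAM
    exact hM.1 (top_le_iff.mp hAM)
  obtain ⟨L, hL, hNL⟩ := Cfsg.Agent.Lib.Helper35.BG.exists_coatom_ge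
    (Cfsg.Agent.Lib.Helper35.BG.normalizer_ne_top hG hA1 hAtop)
  have hpL : p ∈ sigma L :=
    mem_sigma_of_normalizer_ea hG h1417 h1422 M hM p hp A hAM hAe hAc (hCA.trans inf_le_left)
      L hL hNL
  refine ⟨L, hL, ?_⟩
  intro q hq
  by_cases hqp : q = p
  · rw [hqp]; exact hpL
  · have hqq : q.Prime := hq.1
    have : Fact q.Prime := ⟨hqq⟩
    obtain ⟨B, hBE, hBe, hBc⟩ := exists_ea_sq_le_compl hE hq
    obtain ⟨⟨hEB, -⟩, -, -⟩ := h1418 M hM E hE q hq B ⟨hBE, hBe, hBc⟩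
    have hEL : E ≤ L := hEA.trans hNL
    have hinf : A ⊓ B = ⊥ := by
      apply Disjoint.eq_bot
      apply Subgroup.disjoint_of_coprime_natCard
      rw [hAc, hBc]
      exact Nat.Coprime.pow 2 2 ((Nat.coprime_primes hpp hqq).mpr (fun h => hqp h.symm))
    have hcomm : ∀ a ∈ A, ∀ b ∈ B, a * b = b * a := by
      intro a ha b hb
      have h1 : a * b * a⁻¹ * b⁻¹ ∈ A ⊓ B := by
        refine Subgroup.mem_inf.mpr ⟨?_, ?_⟩
        · have h2 : b * a⁻¹ * b⁻¹ ∈ A :=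
            (Subgroup.mem_normalizer_iff.mp (hEA (hBE hb)) a⁻¹).mp (A.inv_mem ha)
          have h3 := A.mul_mem ha h2
          have h4 : a * (b * a⁻¹ * b⁻¹) = a * b * a⁻¹ * b⁻¹ := by group
          rw [h4] at h3
          exact h3
        · have h2 : a * b * a⁻¹ ∈ B :=
            (Subgroup.mem_normalizer_iff.mp (hEB (hAE ha)) b).mp hb
          exact B.mul_mem h2 (B.inv_mem hb)
      rw [hinf, Subgroup.mem_bot] at h1
      have h5 : a * b * a⁻¹ = b := mul_inv_eq_one.mp h1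
      exact mul_inv_eq_iff_eq_mul.mp h5
    exact mem_sigma_of_tau2_commuting hG h1350 h1405 h1417 L hL p hpL A (hAE.trans hEL) hAe hA1
      q B (hBE.trans hEL) hBe hBc hcomm

theorem s1432_core {G : Type*} [Group G] [Finite G] (hG : Cfsg.IsMinSimpleOddOrder G)
    (h1350 : type_of% (@Cfsg.CfsgFrozen.S1350 G _ _ hG))
    (h1405 : type_of% (@Cfsg.CfsgFrozen.S1405 G _ _ hG))
    (h1417 : type_of% (@Cfsg.CfsgFrozen.S1417 G _ _ hG))
    (h1418 : type_of% (@Cfsg.CfsgFrozen.S1418 G _ _ hG))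
    (h1420 : type_of% (@Cfsg.CfsgFrozen.S1420 G _ _ hG))
    (h1422 : type_of% (@Cfsg.CfsgFrozen.S1422 G _ _ hG))
    (h1430 : type_of% (@Cfsg.CfsgFrozen.S1430 G _ _ hG))
    (h1431 : type_of% (@Cfsg.CfsgFrozen.S1431 G _ _ hG))
    (M : Subgroup G) (hM : IsCoatom M) (x : G) (hx : x ∈ Cfsg.sigmaCore M) (hx1 : x ≠ 1) (x' : G)
    (hx' : x' ∈ M ⊓ Subgroup.centralizer ({x} : Set G)) (hx'1 : x' ≠ 1)
    (hσ : ∀ p : ℕ, p.Prime → p ∣ orderOf x' → p ∉ Cfsg.sigma M) :
    ((∀ p : ℕ, p.Prime → p ∣ orderOf x' → p ∈ Cfsg.kappa M) ∧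
        Subgroup.centralizer ({x} : Set G) ≤ M) ∨
      ((∀ p : ℕ, p.Prime → p ∣ orderOf x' → p ∈ Cfsg.tau2 M) ∧
        (∃ L : Subgroup G, IsCoatom L ∧ ∀ p : ℕ, p.Prime → p ∣ orderOf x' → p ∈ Cfsg.sigma L) ∧
        (Subgroup.centralizer ({x'} : Set G) ≤ M ∧
          ∀ L : Subgroup G, IsCoatom L → Subgroup.centralizer ({x'} : Set G) ≤ L → L = M)) := by
  have hx'M : x' ∈ M := (Subgroup.mem_inf.mp hx').1
  have hcomm : x' * x = x * x' :=
    (Subgroup.mem_centralizer_iff.mp (Subgroup.mem_inf.mp hx').2 x rfl).symm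
  have hz : ∀ r : ℕ, r.Prime → r ∣ orderOf x' →
      (x' ^ (orderOf x' / r) ∈ M ∧ orderOf (x' ^ (orderOf x' / r)) = r ∧
        x' ^ (orderOf x' / r) * x = x * x' ^ (orderOf x' / r)) := by
    intro r hr hdvd
    refine ⟨M.pow_mem hx'M _, orderOf_pow_orderOf_div (orderOf_pos x').ne' hdvd, ?_⟩
    have hc : Commute x' x := hcomm
    exact (hc.pow_left _ : Commute _ _)
  have hclass : ∀ r : ℕ, r.Prime → r ∣ orderOf x' → r ∈ kappa M ∨ r ∈ tau2 M := by
    intro r hr hdvd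
    obtain ⟨h1, h2, h3⟩ := hz r hr hdvd
    exact kappa_or_tau2 hG h1405 M hM r hr (hσ r hr hdvd) _ h1 h2 x hx hx1 h3
  by_cases hκ : ∃ r : ℕ, r.Prime ∧ r ∣ orderOf x' ∧ r ∈ kappa M
  · left
    obtain ⟨r, hr, hrdvd, hrκ⟩ := hκ
    obtain ⟨hzM, hzo, hzx⟩ := hz r hr hrdvd
    generalize hzdef : x' ^ (orderOf x' / r) = z at hzM hzo hzx
    have hsolv : Group.IsSolvable M := Cfsg.Agent.Lib.Helper35.BG.isSolvable_of_ne_top hG hM.1
    have hXκ : ∀ p : ℕ, p.Prime → p ∣ Nat.card (Subgroup.zpowers z) → p ∈ kappa M := by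
      intro p hp hdvd
      rw [Nat.card_zpowers, hzo] at hdvd
      rw [(Nat.prime_dvd_prime_iff_eq hp hr).mp hdvd]; exact hrκ
    obtain ⟨K, hK, hXK⟩ := exists_piHallOf_ge (kappa M) M hsolv (Subgroup.zpowers z)
      (by rw [Subgroup.zpowers_le]; exact hzM) hXκ
    have hzK : z ∈ K := hXK (Subgroup.mem_zpowers z)
    have hz1 : z ≠ 1 := by
      intro h
      rw [h, orderOf_one] at hzo
      exact hr.one_lt.ne hzo
    have hK1 : K ≠ ⊥ := by
      intro h
      rw [h, Subgroup.mem_bot] at hzK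
      exact hz1 hzK
    obtain ⟨hcent, -, hnorm⟩ := h1430 M hM K hK hK1
    obtain ⟨hTI, -, -, -⟩ := h1431 M hM K hK hK1
    have hxKs : x ∈ sigmaCore M ⊓ Subgroup.centralizer (K : Set G) := by
      rw [← hcent z hzK hz1]
      refine Subgroup.mem_inf.mpr ⟨hx, ?_⟩
      rw [Subgroup.mem_centralizer_iff]
      intro y hy
      rw [Set.mem_singleton_iff] at hy
      rw [hy]
      exact hzx
    refine ⟨?_, ?_⟩
    · intro p hp hdvd
      rcases hclass p hp hdvd with h | h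
      · exact h
      · exfalso
        obtain ⟨hwM, hwo, -⟩ := hz p hp hdvd
        generalize hwdef : x' ^ (orderOf x' / p) = w at hwM hwo
        have hwz : Commute w z := by
          rw [← hwdef, ← hzdef]
          exact (Commute.refl x').pow_pow _ _
        have hwN : w ∈ M ⊓ Subgroup.normalizer ((Subgroup.zpowers z : Subgroup G) : Set G) := by
          refine Subgroup.mem_inf.mpr ⟨hwM, ?_⟩
          apply Cfsg.Agent.Lib.Helper35.BG.centralizer_le_normalizer'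
          rw [Subgroup.mem_centralizer_iff]
          intro y hy
          obtain ⟨k, rfl⟩ := Subgroup.mem_zpowers_iff.mp hy
          exact ((hwz.zpow_right k).eq).symm
        have hcardX : (Nat.card (Subgroup.zpowers z)).Prime := by
          rw [Nat.card_zpowers, hzo]; exact hr
        rw [(hnorm (Subgroup.zpowers z) hXK hcardX).1] at hwN
        have hcomm2 : ∀ a ∈ K, ∀ b ∈ sigmaCore M ⊓ Subgroup.centralizer (K : Set G),
            a * b = b * a := by
          intro a ha b hb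
          exact Subgroup.mem_centralizer_iff.mp (Subgroup.mem_inf.mp hb).2 a ha
        rcases prime_dvd_of_mem_sup_commute K _ hcomm2 hwN hp hwo with h1 | h1
        · exact not_mem_kappa_of_mem_tau2 h (hK.2.1 p hp h1)
        · exact h.2.1 (sigmaCore_isPi M p hp (h1.trans (Subgroup.card_dvd_of_le inf_le_left)))
    · intro c hc
      by_contra hcM
      have h1 := hTI c hcM
      have h2 : x ∈ (sigmaCore M ⊓ Subgroup.centralizer (K : Set G)) ⊓
          M.map (MulAut.conj c).toMonoidHom := by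
        refine Subgroup.mem_inf.mpr ⟨hxKs, ⟨x, sigmaCore_le M hx, ?_⟩⟩
        change c * x * c⁻¹ = x
        have h3 : x * c = c * x := Subgroup.mem_centralizer_iff.mp hc x rfl
        rw [← h3]
        group
      rw [h1, Subgroup.mem_bot] at h2
      exact hx1 h2
  · right
    push Not at hκ
    have hτ : ∀ p : ℕ, p.Prime → p ∣ orderOf x' → p ∈ tau2 M := by
      intro p hp hdvd
      rcases hclass p hp hdvd with h | h
      · exact absurd h (hκ p hp hdvd)
      · exact h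
    refine ⟨hτ, ?_, ?_⟩
    · have hne1 : orderOf x' ≠ 1 := fun h => hx'1 (orderOf_eq_one_iff.mp h)
      obtain ⟨p, hp, hdvd⟩ := Nat.exists_prime_and_dvd hne1
      obtain ⟨L, hL, hLσ⟩ :=
        exists_sigma_overgroup hG h1350 h1405 h1417 h1418 h1422 M hM p (hτ p hp hdvd)
      exact ⟨L, hL, fun q hq hqdvd => hLσ q (hτ q hq hqdvd)⟩
    · obtain ⟨hHall, -, -⟩ := h1350 M hM
      obtain ⟨E, hE⟩ := exists_compl_sigmaCore M hHall
      obtain ⟨-, -, -, hd⟩ := h1420 M hM E hE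
      exact hd x' hx'M hx'1 hτ ⟨hx'M, x, hx, hx1, hcomm⟩

end Cfsg.Agent.Lib.Helper67.BG
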