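import Mathlib
import Cfsg.Prelude.Def_OddOrderLocal
import Cfsg.Statements.S1350
import Cfsg.Statements.S1405
import Cfsg.Statements.S1409
import Cfsg.Statements.S1417
import Cfsg.Statements.S1420
import Cfsg.Agent.Lib.Helper67.BG.Basics
import Cfsg.Agent.Lib.Helper67.BG.S1358Core
import Cfsg.Agent.Lib.Helper67.BG.FitUtil
import Cfsg.Agent.Lib.Helper35.BG.Basic

/-!
Bender–Glauberman: `Y = O_{σ(M)'}(F(M))` is cyclic, its prime divisors lie in `τ₂(M)` and
`F(M) = F(M_σ) Y` (statement S1439).  Derived from S1350, S1405, S1409, S1417 and S1420, which are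
taken as hypotheses.
-/

set_option autoImplicit false

namespace Cfsg.Agent.Lib.Helper67.BG

open Cfsg

/-- The elements of order dividing `p` in an abelian subgroup `Y`. -/
def omegaP {G : Type*} [Group G] (Y : Subgroup G) (hY : ∀ a ∈ Y, ∀ b ∈ Y, a * b = b * a)
    (p : ℕ) : Subgroup G where
  carrier := {y | y ∈ Y ∧ y ^ p = 1}
  one_mem' := ⟨Y.one_mem, one_pow p⟩
  mul_mem' := by
    rintro a b ⟨ha, ha'⟩ ⟨hb, hb'⟩
    refine ⟨Y.mul_mem ha hb, ?_⟩
    have hc : Commute a b := hY a ha b hb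
    rw [hc.mul_pow, ha', hb', one_mul]
  inv_mem' := by
    rintro a ⟨ha, ha'⟩
    exact ⟨Y.inv_mem ha, by rw [inv_pow, ha', inv_one]⟩

theorem mem_omegaP {G : Type*} [Group G] (Y : Subgroup G) (hY : ∀ a ∈ Y, ∀ b ∈ Y, a * b = b * a)
    (p : ℕ) (y : G) : y ∈ omegaP Y hY p ↔ y ∈ Y ∧ y ^ p = 1 := Iff.rfl

theorem omegaP_le {G : Type*} [Group G] (Y : Subgroup G) (hY : ∀ a ∈ Y, ∀ b ∈ Y, a * b = b * a)
    (p : ℕ) : omegaP Y hY p ≤ Y := fun _ h => h.1

theorem omegaP_normalizer {G : Type*} [Group G] [Finite G] (Y : Subgroup G)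
    (hY : ∀ a ∈ Y, ∀ b ∈ Y, a * b = b * a) (p : ℕ) :
    Subgroup.normalizer (Y : Set G) ≤ Subgroup.normalizer (omegaP Y hY p : Set G) := by
  intro g hg
  apply Cfsg.Agent.Lib.Helper75.BG.mem_normalizer_of_map_le
  rintro _ ⟨y, ⟨hy, hyp⟩, rfl⟩
  refine ⟨(Subgroup.mem_normalizer_iff.mp hg y).mp hy, ?_⟩
  change (g * y * g⁻¹) ^ p = 1
  rw [conj_pow, hyp, mul_one, mul_inv_cancel]

theorem omegaP_isElementaryAbelian {G : Type*} [Group G] (Y : Subgroup G)
    (hY : ∀ a ∈ Y, ∀ b ∈ Y, a * b = b * a) (p : ℕ) :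
    IsElementaryAbelian p (omegaP Y hY p) := by
  refine ⟨⟨⟨fun a b => ?_⟩⟩, fun a ha => ha.2⟩
  apply Subtype.ext
  exact hY a a.2.1 b b.2.1

theorem omegaP_isPGroup {G : Type*} [Group G] (Y : Subgroup G)
    (hY : ∀ a ∈ Y, ∀ b ∈ Y, a * b = b * a) (p : ℕ) : IsPGroup p (omegaP Y hY p) := by
  intro ⟨a, ha⟩
  refine ⟨1, ?_⟩
  apply Subtype.ext
  rw [pow_one]
  exact ha.2

theorem omegaP_ne_bot {G : Type*} [Group G] [Finite G] (Y : Subgroup G)
    (hY : ∀ a ∈ Y, ∀ b ∈ Y, a * b = b * a) (p : ℕ) [Fact p.Prime] (hp : p ∣ Nat.card Y) :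
    omegaP Y hY p ≠ ⊥ := by
  obtain ⟨y, hy⟩ := exists_prime_orderOf_dvd_card' p hp
  intro h
  have hmem : (y : G) ∈ omegaP Y hY p := by
    refine ⟨y.2, ?_⟩
    have := pow_orderOf_eq_one y
    rw [hy] at this
    exact congrArg Subtype.val this
  rw [h, Subgroup.mem_bot] at hmem
  have h1 : y = 1 := Subtype.ext hmem
  rw [h1, orderOf_one] at hy
  exact (Fact.out : p.Prime).one_lt.ne hy

/-- Key step: for an abelian subgroup `Y` of `M` normalized by `M` and a prime `p ∉ σ(M)` dividing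
`|Y|`, the subgroup of elements of `Y` of order dividing `p` has order `p`, and `p ∈ τ₂(M)`. -/
theorem omega_card_of_normal_abelian {G : Type*} [Group G] [Finite G]
    (hG : Cfsg.IsMinSimpleOddOrder G)
    (h1405 : type_of% (@Cfsg.CfsgFrozen.S1405 G _ _ hG))
    (h1409 : type_of% (@Cfsg.CfsgFrozen.S1409 G _ _ hG))
    (h1417 : type_of% (@Cfsg.CfsgFrozen.S1417 G _ _ hG))
    (M : Subgroup G) (hM : IsCoatom M) (Y : Subgroup G) (hYM : Y ≤ M)
    (hYn : M ≤ Subgroup.normalizer (Y : Set G))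
    (hY : ∀ a ∈ Y, ∀ b ∈ Y, a * b = b * a)
    (p : ℕ) [Fact p.Prime] (hpY : p ∣ Nat.card Y) (hpσ : p ∉ sigma M) :
    Nat.card (omegaP Y hY p) = p ∧ p ∈ tau2 M := by
  have hp : p.Prime := Fact.out
  have hTM : omegaP Y hY p ≤ M := (omegaP_le Y hY p).trans hYM
  have hTne : omegaP Y hY p ≠ ⊥ := omegaP_ne_bot Y hY p hpY
  have hTtop : omegaP Y hY p ≠ ⊤ := by
    intro h
    rw [h] at hTM
    exact hM.1 (top_le_iff.mp hTM)
  have hTn : M ≤ Subgroup.normalizer (omegaP Y hY p : Set G) :=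
    hYn.trans (omegaP_normalizer Y hY p)
  have hNT : Subgroup.normalizer (omegaP Y hY p : Set G) ≤ M := by
    have hne := Cfsg.Agent.Lib.Helper35.BG.normalizer_ne_top hG hTne hTtop
    rcases eq_or_lt_of_le hTn with h | h
    · exact h ▸ le_rfl
    · exact absurd (hM.2 _ h) hne
  obtain ⟨hα, -, hασ, -, -⟩ := h1405 M hM
  have hr2 : PRankLE p 2 M := pRankLE_two_of_not_mem_sigma M hα hασ hp hpσ
  have hTea := omegaP_isElementaryAbelian Y hY p
  have hTcomm : ∀ a ∈ omegaP Y hY p, ∀ b ∈ omegaP Y hY p, a * b = b * a :=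
    fun a ha b hb => hY a ha.1 b hb.1
  have hTexp : ∀ a ∈ omegaP Y hY p, a ^ p = 1 := fun a ha => ha.2
  have hTle : Nat.card (omegaP Y hY p) ≤ p ^ 2 :=
    (Cfsg.Agent.Lib.Helper24.pRankLE_subgroup_iff p 2 M).mp hr2 _ hTM hTcomm hTexp
  obtain ⟨n, hn⟩ := IsPGroup.iff_card.mp (omegaP_isPGroup Y hY p)
  have hn1 : n ≠ 0 := by
    intro h0
    rw [h0, pow_zero] at hn
    exact hTne (Subgroup.card_eq_one.mp hn)
  have hn2 : n ≤ 2 := by
    rw [hn] at hTle
    exact (Nat.pow_le_pow_iff_right hp.one_lt).mp hTle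
  have hcard : Nat.card (omegaP Y hY p) = p := by
    have hn' : n = 1 ∨ n = 2 := by omega
    rcases hn' with h1 | h2
    · rw [hn, h1, pow_one]
    · exfalso
      rw [h2] at hn
      have hr1 : ¬ PRankLE p 1 M := by
        intro h1
        have := (Cfsg.Agent.Lib.Helper24.pRankLE_subgroup_iff p 1 M).mp h1 _ hTM hTcomm hTexp
        rw [hn] at this
        have h3 : 2 ≤ 1 := (Nat.pow_le_pow_iff_right hp.one_lt).mp this
        omega
      have hτ : p ∈ tau2 M := ⟨hp, hpσ, hr2, hr1⟩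
      obtain ⟨-, hb, -⟩ := h1417 M hM p hτ (omegaP Y hY p) ⟨hTM, hTea, hn⟩
      have hT' : IsPGroup p ((omegaP Y hY p).subgroupOf M) :=
        (omegaP_isPGroup Y hY p).comap_of_injective M.subtype M.subtype_injective
      obtain ⟨P, hP⟩ := hT'.exists_le_sylow
      obtain ⟨-, hb2⟩ := hb P
      have hTP : omegaP Y hY p ≤ (P : Subgroup M).map M.subtype := by
        intro t ht
        exact ⟨⟨t, hTM ht⟩, hP (Subgroup.mem_subgroupOf.mpr ht), rfl⟩
      obtain ⟨hiff, hnot⟩ := hb2 hTP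
      apply hnot
      refine le_trans ?_ hNT
      intro g hg
      apply Cfsg.Agent.Lib.Helper75.BG.mem_normalizer_of_map_le
      rintro _ ⟨t, ht, rfl⟩
      have h1 : g * t * g⁻¹ ∈ (P : Subgroup M).map M.subtype :=
        (Subgroup.mem_normalizer_iff.mp hg t).mp (hTP ht)
      apply (hiff _ h1).mp
      rw [conj_pow, ht.2, mul_one, mul_inv_cancel]
  refine ⟨hcard, ?_⟩
  obtain ⟨⟨-, hr1⟩, -⟩ := h1409 M hM p hpσ (omegaP Y hY p) hcard hNT
  exact ⟨hp, hpσ, hr2, hr1⟩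

theorem s1439_core {G : Type*} [Group G] [Finite G] (hG : Cfsg.IsMinSimpleOddOrder G)
    (h1350 : type_of% (@Cfsg.CfsgFrozen.S1350 G _ _ hG))
    (h1405 : type_of% (@Cfsg.CfsgFrozen.S1405 G _ _ hG))
    (h1409 : type_of% (@Cfsg.CfsgFrozen.S1409 G _ _ hG))
    (h1417 : type_of% (@Cfsg.CfsgFrozen.S1417 G _ _ hG))
    (h1420 : type_of% (@Cfsg.CfsgFrozen.S1420 G _ _ hG))
    (M : Subgroup G) (hM : IsCoatom M) :
    IsCyclic ↥(Cfsg.piCoreOf {q | q.Prime ∧ q ∉ Cfsg.sigma M} (Cfsg.fittingOf M)) ∧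
      (∀ p : ℕ, p.Prime →
        p ∣ Nat.card ↥(Cfsg.piCoreOf {q | q.Prime ∧ q ∉ Cfsg.sigma M} (Cfsg.fittingOf M)) →
        p ∈ Cfsg.tau2 M) ∧
      Cfsg.fittingOf M = Cfsg.fittingOf (Cfsg.sigmaCore M) ⊔
        Cfsg.piCoreOf {q | q.Prime ∧ q ∉ Cfsg.sigma M} (Cfsg.fittingOf M) := by
  generalize hYdef : Cfsg.piCoreOf {q | q.Prime ∧ q ∉ Cfsg.sigma M} (Cfsg.fittingOf M) = Y
  have hYF : Y ≤ fittingOf M := by
    rw [← hYdef]; exact Cfsg.Agent.Lib.Helper23.piCoreOf_le _ _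
  have hYM : Y ≤ M := hYF.trans (fittingOf_le M)
  have hYn : M ≤ Subgroup.normalizer (Y : Set G) := by
    rw [← hYdef]
    exact (fittingOf_normalizer M).trans
      (Cfsg.Agent.Lib.Helper23.normalizer_le_normalizer_piCoreOf _ _)
  have hYπ : ∀ p : ℕ, p.Prime → p ∣ Nat.card Y → p ∉ sigma M := by
    intro p hp hdvd
    rw [← hYdef] at hdvd
    exact (Cfsg.Agent.Lib.Helper23.piCoreOf_isPi _ _ p hp hdvd).2
  have hYnil : Group.IsNilpotent Y :=
    Cfsg.Agent.Lib.Helper75.BG.isNilpotent_of_le hYF (fittingOf_isNilpotent M)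
  obtain ⟨hHall, -, -⟩ := h1350 M hM
  obtain ⟨E, hE⟩ := exists_compl_sigmaCore M hHall
  obtain ⟨hab, -, -, -⟩ := h1420 M hM E hE
  have hYc : IsMulCommutative Y := hab Y hYM hYnil hYπ
  have hY : ∀ a ∈ Y, ∀ b ∈ Y, a * b = b * a := by
    intro a ha b hb
    have := hYc.is_comm.comm (⟨a, ha⟩ : Y) ⟨b, hb⟩
    exact congrArg Subtype.val this
  have key : ∀ p : ℕ, p.Prime → p ∣ Nat.card Y →
      Nat.card (omegaP Y hY p) = p ∧ p ∈ tau2 M := by
    intro p hp hdvd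
    have : Fact p.Prime := ⟨hp⟩
    exact omega_card_of_normal_abelian hG h1405 h1409 h1417 M hM Y hYM hYn hY p hdvd
      (hYπ p hp hdvd)
  refine ⟨?_, fun p hp hdvd => (key p hp hdvd).2, ?_⟩
  · apply Cfsg.Agent.Lib.Helper75.BG.isCyclic_of_nilpotent_rank_one hG.1 Y Y le_rfl hYnil
    intro p hp hdvd
    rw [Cfsg.Agent.Lib.Helper24.pRankLE_subgroup_iff]
    intro B hBY hBc hBp
    have hBT : B ≤ omegaP Y hY p := fun b hb => ⟨hBY hb, hBp b hb⟩
    have h1 : Nat.card B ≤ Nat.card (omegaP Y hY p) :=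
      Nat.le_of_dvd Nat.card_pos (Subgroup.card_dvd_of_le hBT)
    rw [(key p hp hdvd).1] at h1
    simpa using h1
  · apply le_antisymm
    · have hFnil := fittingOf_isNilpotent M
      have htop := piCore_sup_piCore_eq_top ↥(fittingOf M) (sigma M)
        {q | q.Prime ∧ q ∉ sigma M}
        (fun p hp => by
          by_cases h : p ∈ sigma M
          · exact Or.inl h
          · exact Or.inr ⟨hp, h⟩)
      have hF : fittingOf M = piCoreOf (sigma M) (fittingOf M) ⊔ Y := by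
        have h1 := congrArg (Subgroup.map (fittingOf M).subtype) htop
        rw [Subgroup.map_sup, ← MonoidHom.range_eq_map, Subgroup.range_subtype] at h1
        rw [← hYdef]
        exact h1.symm
      have hZF : piCoreOf (sigma M) (fittingOf M) ≤ fittingOf M :=
        Cfsg.Agent.Lib.Helper23.piCoreOf_le _ _
      have hZn : M ≤ Subgroup.normalizer (piCoreOf (sigma M) (fittingOf M) : Set G) :=
        (fittingOf_normalizer M).trans
          (Cfsg.Agent.Lib.Helper23.normalizer_le_normalizer_piCoreOf _ _)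
      have hZσ : piCoreOf (sigma M) (fittingOf M) ≤ sigmaCore M :=
        Cfsg.Agent.Lib.Helper23.le_piCoreOf_of_normal (hZF.trans (fittingOf_le M)) hZn
          (Cfsg.Agent.Lib.Helper23.piCoreOf_isPi _ _)
      have hZ : piCoreOf (sigma M) (fittingOf M) ≤ fittingOf (sigmaCore M) :=
        le_fittingOf_of_normal_nilpotent hZσ ((sigmaCore_le M).trans hZn)
          (Cfsg.Agent.Lib.Helper75.BG.isNilpotent_of_le hZF hFnil)
      exact hF.le.trans (sup_le_sup_right hZ Y)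
    · exact sup_le (fittingOf_sigmaCore_le M) hYF

end Cfsg.Agent.Lib.Helper67.BG
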